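import Mathlib
import Cfsg.Prelude.Def_GeometricClasses
import Cfsg.Agent.Lib.Helper71.Asch0
import Cfsg.Agent.Lib.Helper71.Asch5

/-!
# S5630 (Aschbacher, helper71's project ASCH), B5 sub-piece SB (helper28)

In the symplectic-type branch the prime `r` with `x ^ r` scalar for all `x ∈ L` is not the
characteristic of `F`.
-/

set_option autoImplicit false

namespace Cfsg.Agent.Lib.Helper28.ASSB

open Matrix Cfsg.Geo Cfsg.Agent.Lib.Helper71.Asch
open scoped Kronecker

variable {n : ℕ} {F : Type*} [Field F] [Fintype F]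

omit [Fintype F] in
/-- scalar matrices are central in `GL` -/
theorem scalars_comm (g : GL (Fin n) F) (hg : g ∈ scalars (Fin n) F) (a : GL (Fin n) F) :
    g * a = a * g := by
  obtain ⟨c, hc⟩ := (mem_scalars_iff g).mp hg
  apply Units.ext
  rw [Units.val_mul, Units.val_mul, hc, Matrix.smul_mul, Matrix.mul_smul, Matrix.one_mul,
    Matrix.mul_one]

/-- if `y x = z x y` with `z` central then `y ^ k x = z ^ k x y ^ k` -/
theorem pow_mul_of_central {G : Type*} [Group G] (x y z : G) (hz : ∀ g : G, z * g = g * z)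
    (hyx : y * x = z * x * y) : ∀ k : ℕ, y ^ k * x = z ^ k * x * y ^ k := by
  intro k
  induction k with
  | zero => simp
  | succ k ih =>
    have hc : z ^ k * y = y * z ^ k := ((show Commute z y from hz y).pow_left k).eq
    calc y ^ (k + 1) * x = y * (y ^ k * x) := by rw [pow_succ', mul_assoc]
      _ = y * (z ^ k * x * y ^ k) := by rw [ih]
      _ = (y * z ^ k) * x * y ^ k := by simp only [mul_assoc]
      _ = (z ^ k * y) * x * y ^ k := by rw [hc]
      _ = z ^ k * (y * x) * y ^ k := by simp only [mul_assoc]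
      _ = z ^ k * (z * x * y) * y ^ k := by rw [hyx]
      _ = z ^ (k + 1) * x * y ^ (k + 1) := by
          rw [pow_succ, pow_succ']; simp only [mul_assoc]

omit [Fintype F] in
/-- SB -/
theorem SB (hn : 2 ≤ n) (H L : Subgroup (GL (Fin n) F)) (h : SymT H L) (r : ℕ) (hr : r.Prime)
    (hx : ∀ x ∈ L, x ^ r ∈ scalars (Fin n) F) : (r : F) ≠ 0 := by
  intro hr0
  have hdvd : ringChar F ∣ r := (ringChar.spec F r).mp hr0
  have hchar : ringChar F = r := by
    rcases (Nat.dvd_prime hr).mp hdvd with h1 | h1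
    · exact absurd h1 CharP.ringChar_ne_one
    · exact h1
  have : CharP F r := hchar ▸ ringChar.charP F
  have : Fact r.Prime := ⟨hr⟩
  have i0 : Fin n := ⟨0, by omega⟩
  -- `L` is abelian
  have hab : ∀ x ∈ L, ∀ y ∈ L, y * x = x * y := by
    intro x hxL y hyL
    have hzs : y * x * y⁻¹ * x⁻¹ ∈ scalars (Fin n) F := by
      have h1 := Subgroup.commutator_mem_commutator hyL hxL
      rw [commutatorElement_def] at h1
      exact h.comm h1
    have hzc : ∀ g : GL (Fin n) F, (y * x * y⁻¹ * x⁻¹) * g = g * (y * x * y⁻¹ * x⁻¹) :=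
      scalars_comm _ hzs
    have hyx : y * x = (y * x * y⁻¹ * x⁻¹) * x * y := by group
    have hpow := pow_mul_of_central x y (y * x * y⁻¹ * x⁻¹) hzc hyx r
    have hyr : y ^ r * x = x * y ^ r := scalars_comm _ (hx y hyL) x
    have hzr : (y * x * y⁻¹ * x⁻¹) ^ r = 1 := by
      have h2 : (y * x * y⁻¹ * x⁻¹) ^ r * (x * y ^ r) = 1 * (x * y ^ r) := by
        rw [one_mul, ← mul_assoc, ← hpow, hyr]
      exact mul_right_cancel h2
    obtain ⟨c, hc⟩ := (mem_scalars_iff _).mp hzs
    have hcr : (c : F) ^ r = 1 := by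
      have h3 := congrArg (fun g : GL (Fin n) F => (g : Matrix (Fin n) (Fin n) F) i0 i0) hzr
      simp only [Units.val_pow_eq_pow_val, hc, smul_pow, one_pow, Units.val_one,
        Matrix.smul_apply, Matrix.one_apply_eq, smul_eq_mul, mul_one] at h3
      exact h3
    have hc1 : (c : F) = 1 := by
      have h4 : ((c : F) - 1) ^ r = 0 := by
        rw [sub_pow_char, hcr, one_pow, sub_self]
      exact sub_eq_zero.mp (pow_eq_zero_iff hr.ne_zero |>.mp h4)
    have hz1 : y * x * y⁻¹ * x⁻¹ = 1 := by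
      apply Units.ext
      rw [hc, hc1, one_smul, Units.val_one]
    calc y * x = (y * x * y⁻¹ * x⁻¹) * (x * y) := by group
      _ = x * y := by rw [hz1, one_mul]
  -- hence `L` is scalar
  apply h.min.ns
  intro x hxL
  have hcomm : ∀ s ∈ matrixSet L, x.1 * s = s * x.1 := by
    rintro _ ⟨y, hyL, rfl⟩
    have h1 := hab y hyL x hxL
    have h2 := congrArg (fun g : GL (Fin n) F => (g : Matrix (Fin n) (Fin n) F)) h1
    simpa only [Units.val_mul] using h2
  obtain ⟨c, hc⟩ := h.abs.2 x.1 hcomm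
  have hc0 : c ≠ 0 := by
    rintro rfl
    rw [zero_smul] at hc
    have h1 : x.1 * (x⁻¹ : GL (Fin n) F).1 = 1 := by
      rw [← Units.val_mul, mul_inv_cancel, Units.val_one]
    rw [hc, Matrix.zero_mul] at h1
    have h2 := congrFun (congrFun h1 i0) i0
    simp at h2
  exact (mem_scalars_iff x).mpr ⟨Units.mk0 c hc0, hc⟩

end Cfsg.Agent.Lib.Helper28.ASSB
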