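import Mathlib
import Cfsg.Prelude.Def_GeometricClasses
import Cfsg.Agent.Lib.Helper71.Asch0
import Cfsg.Agent.Lib.Helper19.ASUFS

/-!
# S5630 (Aschbacher, helper71's project ASCH), piece UFQ (helper28)

An absolutely irreducible subgroup `L` normalised by `H` and fixing a non-degenerate quadratic form
`Q`: for odd `|F|` the group `H` lies in the similarity group of `Q`; for even `|F|` the polar
form is symplectic and the symplectic piece UFS (taken as a hypothesis) applies.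
-/

set_option autoImplicit false

namespace Cfsg.Agent.Lib.Helper28.ASUFQ

open Matrix Cfsg.Geo Cfsg.Agent.Lib.Helper71.Asch
open scoped Kronecker

variable {n : ℕ} {F : Type*} [Field F] [Fintype F]

omit [Fintype F] in
/-- A bilinear form given as a function has a Gram matrix. -/
theorem exists_gram (f : (Fin n → F) → (Fin n → F) → F) (hf : IsBilinearForm f) :
    ∃ S : Matrix (Fin n) (Fin n) F, ∀ u v, f u v = u ⬝ᵥ (S *ᵥ v) := by
  let B : LinearMap.BilinForm F (Fin n → F) :=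
    LinearMap.mk₂ F f hf.add_left hf.smul_left hf.add_right hf.smul_right
  refine ⟨LinearMap.BilinForm.toMatrix' B, fun u v => ?_⟩
  rw [← Matrix.toBilin'_apply', Matrix.toBilin'_toMatrix']
  rfl

omit [Fintype F] in
/-- The Gram matrix of a non-degenerate form is invertible. -/
theorem gram_det_ne_zero (f : (Fin n → F) → (Fin n → F) → F) (hnd : IsNondegenerateForm f)
    (S : Matrix (Fin n) (Fin n) F) (hS : ∀ u v, f u v = u ⬝ᵥ (S *ᵥ v)) : S.det ≠ 0 := by
  intro hdet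
  obtain ⟨v, hv, hSv⟩ := Matrix.exists_mulVec_eq_zero_iff.mpr hdet
  obtain ⟨x, hx⟩ := (hnd v hv).1
  apply hx
  rw [hS, hSv, dotProduct_zero]

omit [Fintype F] in
theorem mat_eq_of_forms {A B : Matrix (Fin n) (Fin n) F}
    (h : ∀ u v, u ⬝ᵥ (A *ᵥ v) = u ⬝ᵥ (B *ᵥ v)) : A = B := by
  ext i j
  have h1 := h (Pi.single i 1) (Pi.single j 1)
  simpa using h1

omit [Fintype F] in
theorem dot_conj (A S : Matrix (Fin n) (Fin n) F) (u v : Fin n → F) :
    (A *ᵥ u) ⬝ᵥ (S *ᵥ (A *ᵥ v)) = u ⬝ᵥ ((Aᵀ * S * A) *ᵥ v) := by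
  rw [← Matrix.vecMul_transpose, ← Matrix.dotProduct_mulVec, Matrix.mulVec_mulVec,
    Matrix.mulVec_mulVec, Matrix.mul_assoc]

omit [Fintype F] in
/-- Uniqueness of invariant bilinear forms: if the absolutely irreducible group `L`, normalised by
`H`, fixes the non-degenerate bilinear form `f`, then every element of `H` scales `f`. -/
theorem similarity_of_fixes (hn : 1 ≤ n) (H L : Subgroup (GL (Fin n) F)) (hN : Nrm H L)
    (hLa : ActsAbsolutelyIrreducibly (matrixSet L)) (f : (Fin n → F) → (Fin n → F) → F)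
    (hf : IsBilinearForm f) (hnd : IsNondegenerateForm f) (hfix : FixesForm (matrixSet L) f) :
    ∀ h ∈ H, ∃ c : Fˣ, ∀ u v, f (h.1 *ᵥ u) (h.1 *ᵥ v) = (c : F) * f u v := by
  obtain ⟨S, hS⟩ := exists_gram f hf
  have hdet : S.det ≠ 0 := gram_det_ne_zero f hnd S hS
  have hLS : ∀ x ∈ L, x.1ᵀ * S * x.1 = S := by
    intro x hx
    apply mat_eq_of_forms
    intro u v
    rw [← dot_conj, ← hS, ← hS]
    exact hfix x.1 ⟨x, hx, rfl⟩ u v
  intro h hh
  have hLSh : ∀ x ∈ L, x.1ᵀ * (h.1ᵀ * S * h.1) * x.1 = h.1ᵀ * S * h.1 := by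
    intro x hx
    have hx' := hLS (h * x * h⁻¹) (hN h hh x hx)
    have e1 : h.1 * x.1 = (h * x * h⁻¹ : GL (Fin n) F).1 * h.1 := by
      rw [← Units.val_mul, ← Units.val_mul]
      congr 1
      group
    calc x.1ᵀ * (h.1ᵀ * S * h.1) * x.1 = (h.1 * x.1)ᵀ * S * (h.1 * x.1) := by
          rw [Matrix.transpose_mul]; simp only [Matrix.mul_assoc]
      _ = h.1ᵀ * ((h * x * h⁻¹ : GL (Fin n) F).1ᵀ * S * (h * x * h⁻¹ : GL (Fin n) F).1) * h.1 := by
          rw [e1, Matrix.transpose_mul]; simp only [Matrix.mul_assoc]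
      _ = h.1ᵀ * S * h.1 := by rw [hx']
  have key : ∀ (R : Matrix (Fin n) (Fin n) F), (∀ x ∈ L, x.1ᵀ * R * x.1 = R) →
      ∀ x ∈ L, (x⁻¹ : GL (Fin n) F).1ᵀ * R = R * x.1 := by
    intro R hR x hx
    have h1 := hR x⁻¹ (L.inv_mem hx)
    calc (x⁻¹ : GL (Fin n) F).1ᵀ * R
        = (x⁻¹ : GL (Fin n) F).1ᵀ * R * ((x⁻¹ : GL (Fin n) F).1 * x.1) := by
          rw [← Units.val_mul, inv_mul_cancel, Units.val_one, Matrix.mul_one]
      _ = ((x⁻¹ : GL (Fin n) F).1ᵀ * R * (x⁻¹ : GL (Fin n) F).1) * x.1 := by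
          simp only [Matrix.mul_assoc]
      _ = R * x.1 := by rw [h1]
  have hSu : IsUnit S.det := Ne.isUnit hdet
  have hSinv : S⁻¹ * S = 1 := Matrix.nonsing_inv_mul S hSu
  have hSinv' : S * S⁻¹ = 1 := Matrix.mul_nonsing_inv S hSu
  have hcomm : ∀ s ∈ matrixSet L, (S⁻¹ * (h.1ᵀ * S * h.1)) * s = s * (S⁻¹ * (h.1ᵀ * S * h.1)) := by
    rintro _ ⟨x, hx, rfl⟩
    have ha := key S hLS x hx
    have hb := key _ hLSh x hx
    calc S⁻¹ * (h.1ᵀ * S * h.1) * x.1 = S⁻¹ * ((h.1ᵀ * S * h.1) * x.1) := by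
          rw [Matrix.mul_assoc]
      _ = S⁻¹ * ((x⁻¹ : GL (Fin n) F).1ᵀ * (h.1ᵀ * S * h.1)) := by rw [hb]
      _ = S⁻¹ * ((x⁻¹ : GL (Fin n) F).1ᵀ * (S * S⁻¹) * (h.1ᵀ * S * h.1)) := by
          rw [hSinv', Matrix.mul_one]
      _ = S⁻¹ * (((x⁻¹ : GL (Fin n) F).1ᵀ * S) * (S⁻¹ * (h.1ᵀ * S * h.1))) := by
          simp only [Matrix.mul_assoc]
      _ = S⁻¹ * ((S * x.1) * (S⁻¹ * (h.1ᵀ * S * h.1))) := by rw [ha]
      _ = (S⁻¹ * S) * (x.1 * (S⁻¹ * (h.1ᵀ * S * h.1))) := by simp only [Matrix.mul_assoc]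
      _ = x.1 * (S⁻¹ * (h.1ᵀ * S * h.1)) := by rw [hSinv, Matrix.one_mul]
  obtain ⟨c, hc⟩ := hLa.2 _ hcomm
  have hShc : h.1ᵀ * S * h.1 = c • S := by
    calc h.1ᵀ * S * h.1 = S * (S⁻¹ * (h.1ᵀ * S * h.1)) := by
          rw [← Matrix.mul_assoc, hSinv', Matrix.one_mul]
      _ = c • S := by rw [hc, Matrix.mul_smul, Matrix.mul_one]
  have hc0 : c ≠ 0 := by
    rintro rfl
    rw [zero_smul] at hShc
    have hh0 : h.1.det ≠ 0 := ((Matrix.isUnit_iff_isUnit_det _).mp h.isUnit).ne_zero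
    have hdSh : (h.1ᵀ * S * h.1).det ≠ 0 := by
      rw [Matrix.det_mul, Matrix.det_mul, Matrix.det_transpose]
      exact mul_ne_zero (mul_ne_zero hh0 hdet) hh0
    rw [hShc] at hdSh
    have hne : Nonempty (Fin n) := ⟨⟨0, by omega⟩⟩
    exact hdSh Matrix.det_zero
  refine ⟨Units.mk0 c hc0, fun u v => ?_⟩
  rw [hS, hS, dot_conj, hShc, Matrix.smul_mulVec, dotProduct_smul, smul_eq_mul]
  rfl

omit [Fintype F] in
theorem polar_self (Q : (Fin n → F) → F) (hQ : IsNondegenerateQuadraticForm Q) (v : Fin n → F) :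
    QuadraticMap.polar Q v v = 2 * Q v := by
  have h2 : v + v = (2 : F) • v := (two_smul F v).symm
  unfold QuadraticMap.polar
  rw [h2, hQ.smul]
  ring

omit [Fintype F] in
theorem fixes_polar (S : Set (Matrix (Fin n) (Fin n) F)) (Q : (Fin n → F) → F)
    (hfix : FixesQuadForm S Q) : FixesForm S (QuadraticMap.polar Q) := by
  intro s hs u v
  unfold QuadraticMap.polar
  rw [← Matrix.mulVec_add, hfix s hs, hfix s hs, hfix s hs]

/-- UFQ, with the symplectic piece UFS (for the same `H`, `L`) as a hypothesis. -/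
theorem UFQ_of (hn : 3 ≤ n) (H L : Subgroup (GL (Fin n) F)) (hN : Nrm H L)
    (hLa : ActsAbsolutelyIrreducibly (matrixSet L)) (Q : (Fin n → F) → F)
    (hQ : IsNondegenerateQuadraticForm Q) (hfix : FixesQuadForm (matrixSet L) Q)
    (hUFS : ∀ f : (Fin n → F) → (Fin n → F) → F, IsSymplecticForm f →
      FixesForm (matrixSet L) f → InCls H) : InCls H := by
  have hfixB := fixes_polar (matrixSet L) Q hfix
  by_cases hodd : Odd (Fintype.card F)
  · have h2 : (2 : F) ≠ 0 := by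
      apply Ring.two_ne_zero
      intro hchar
      have h3 := FiniteField.even_card_of_char_two hchar
      rcases hodd with ⟨k, hk⟩
      omega
    have hsim := similarity_of_fixes (by omega) H L hN hLa _ hQ.polar_bilinear hQ.nondegenerate
      hfixB
    refine ⟨quadSimilarityGroup Q, Or.inr (Or.inr (Or.inr (Or.inr (Or.inr (Or.inr (Or.inr
      (Or.inr (Or.inr (Or.inr (Or.inr ⟨Q, hQ, hodd, hn, rfl⟩)))))))))), ?_⟩
    intro h hh
    obtain ⟨c, hc⟩ := hsim h hh
    refine ⟨c, fun v => ?_⟩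
    have h1 := hc v v
    rw [polar_self Q hQ, polar_self Q hQ] at h1
    apply mul_left_cancel₀ h2
    rw [h1]
    ring
  · have h2 : (2 : F) = 0 := by
      have hchar : ringChar F = 2 := FiniteField.even_card_iff_char_two.mpr (by
        rcases Nat.even_or_odd (Fintype.card F) with h | h
        · exact Nat.even_iff.mp h
        · exact absurd h hodd)
      have h3 : ((ringChar F : ℕ) : F) = 0 := ringChar.Nat.cast_ringChar
      rw [hchar] at h3
      exact_mod_cast h3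
    apply hUFS (QuadraticMap.polar Q) _ hfixB
    refine ⟨hQ.polar_bilinear, ?_, ?_, hQ.nondegenerate⟩
    · intro v w
      have hsym : QuadraticMap.polar Q v w = QuadraticMap.polar Q w v :=
        QuadraticMap.polar_comm Q v w
      have hz : QuadraticMap.polar Q w v + QuadraticMap.polar Q w v = 0 := by
        rw [← two_mul, h2, zero_mul]
      rw [hsym]
      exact eq_neg_of_add_eq_zero_left hz
    · intro v
      rw [polar_self Q hQ, h2, zero_mul]

/-- UFQ: an absolutely irreducible normal subgroup fixing a non-degenerate quadratic form. -/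
theorem UFQ (hn : 3 ≤ n) (H L : Subgroup (GL (Fin n) F)) (hN : Nrm H L)
    (hLa : ActsAbsolutelyIrreducibly (matrixSet L)) (Q : (Fin n → F) → F)
    (hQ : IsNondegenerateQuadraticForm Q) (hfix : FixesQuadForm (matrixSet L) Q) : InCls H :=
  UFQ_of hn H L hN hLa Q hQ hfix (Cfsg.Agent.Lib.Helper19.ASUFS.UFS hn H L hN hLa)

end Cfsg.Agent.Lib.Helper28.ASUFQ
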