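import Mathlib
import Cfsg.Prelude.Def_GeometricClasses
import Cfsg.Prelude.Def_LieClassical
import Cfsg.Agent.Lib.Helper71.Asch5
import Cfsg.Agent.Lib.Helper82.ASB8UNITS
import Cfsg.Agent.Lib.Helper44.BADDefs

/-! Project BAD (helper44), piece AIRR (helper28): the tensor products of the elements of a
spanning set act absolutely irreducibly. -/

set_option autoImplicit false

namespace Cfsg.Agent.Lib.Helper44.BAD

open Matrix Cfsg.Geo Cfsg.Agent.Lib.Helper71.Asch
open scoped Kronecker

variable {n : ℕ} {F : Type*} [Field F] [Fintype F] {q : ℕ}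

/-- `N ↦ P N P⁻¹` (transported along `e`) as a linear map -/
def AIRR_theta (e : Fin n ≃ Fin 3 × Fin 3) (P : GL (Fin n) F) :
    Matrix (Fin 3 × Fin 3) (Fin 3 × Fin 3) F →ₗ[F] Matrix (Fin n) (Fin n) F where
  toFun N := P.1 * Matrix.reindex e.symm e.symm N * (P⁻¹ : GL (Fin n) F).1
  map_add' x y := by
    have h : Matrix.reindex e.symm e.symm (x + y)
        = Matrix.reindex e.symm e.symm x + Matrix.reindex e.symm e.symm y := rfl
    rw [h, Matrix.mul_add, Matrix.add_mul]
  map_smul' c x := by
    have h : Matrix.reindex e.symm e.symm (c • x) = c • Matrix.reindex e.symm e.symm x := rfl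
    rw [h, Matrix.mul_smul, Matrix.smul_mul]
    rfl

theorem AIRR_tmat_eq (e : Fin n ≃ Fin 3 × Fin 3) (P : GL (Fin n) F)
    (a b : Matrix (Fin 3) (Fin 3) F) : tmat e P a b = AIRR_theta e P (a ⊗ₖ b) := rfl

theorem AIRR_surj (e : Fin n ≃ Fin 3 × Fin 3) (P : GL (Fin n) F)
    (M : Matrix (Fin n) (Fin n) F) : ∃ N, AIRR_theta e P N = M := by
  refine ⟨Matrix.reindex e e ((P⁻¹ : GL (Fin n) F).1 * M * P.1), ?_⟩
  show P.1 * Matrix.reindex e.symm e.symm
    (Matrix.reindex e e ((P⁻¹ : GL (Fin n) F).1 * M * P.1)) * (P⁻¹ : GL (Fin n) F).1 = M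
  have h1 : Matrix.reindex e.symm e.symm
      (Matrix.reindex e e ((P⁻¹ : GL (Fin n) F).1 * M * P.1))
      = (P⁻¹ : GL (Fin n) F).1 * M * P.1 := by
    simp [Matrix.reindex_apply, Matrix.submatrix_submatrix]
  have h2 : P.1 * (P⁻¹ : GL (Fin n) F).1 = 1 := by
    rw [← Units.val_mul, mul_inv_cancel, Units.val_one]
  rw [h1]
  calc P.1 * ((P⁻¹ : GL (Fin n) F).1 * M * P.1) * (P⁻¹ : GL (Fin n) F).1
      = (P.1 * (P⁻¹ : GL (Fin n) F).1) * M * (P.1 * (P⁻¹ : GL (Fin n) F).1) := by
        simp only [mul_assoc]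
    _ = M := by rw [h2, one_mul, mul_one]

/-- a subspace of matrices containing the tensor products of a spanning set is everything -/
theorem AIRR_key (e : Fin n ≃ Fin 3 × Fin 3) (P : GL (Fin n) F)
    (S : Set (Matrix (Fin 3) (Fin 3) F)) (hS : Submodule.span F S = ⊤)
    (A : Submodule F (Matrix (Fin n) (Fin n) F))
    (h : ∀ a ∈ S, ∀ b ∈ S, tmat e P a b ∈ A) : ∀ M, M ∈ A := by
  have h1 : ∀ a : Matrix (Fin 3) (Fin 3) F, ∀ b ∈ S, tmat e P a b ∈ A := by
    intro a b hb
    have ha : a ∈ Submodule.span F S := by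
      rw [hS]
      exact Submodule.mem_top
    induction ha using Submodule.span_induction with
    | mem x hx => exact h x hx b hb
    | zero =>
      rw [AIRR_tmat_eq, Matrix.zero_kronecker, map_zero]
      exact A.zero_mem
    | add x y _ _ hx hy =>
      rw [AIRR_tmat_eq, Matrix.add_kronecker, map_add]
      exact A.add_mem hx hy
    | smul c x _ hx =>
      rw [AIRR_tmat_eq, Matrix.smul_kronecker, map_smul]
      exact A.smul_mem c hx
  have h2 : ∀ a b : Matrix (Fin 3) (Fin 3) F, tmat e P a b ∈ A := by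
    intro a b
    have hb : b ∈ Submodule.span F S := by
      rw [hS]
      exact Submodule.mem_top
    induction hb using Submodule.span_induction with
    | mem x hx => exact h1 a x hx
    | zero =>
      rw [AIRR_tmat_eq, Matrix.kronecker_zero, map_zero]
      exact A.zero_mem
    | add x y _ _ hx hy =>
      rw [AIRR_tmat_eq, Matrix.kronecker_add, map_add]
      exact A.add_mem hx hy
    | smul c x _ hx =>
      rw [AIRR_tmat_eq, Matrix.kronecker_smul, map_smul]
      exact A.smul_mem c hx
  have h3 : ∀ N, AIRR_theta e P N ∈ A := by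
    intro N
    rw [Matrix.matrix_eq_sum_single N, map_sum]
    refine Submodule.sum_mem _ (fun p _ => ?_)
    rw [map_sum]
    refine Submodule.sum_mem _ (fun r _ => ?_)
    have e1 : Matrix.single p r (N p r)
        = Matrix.single p.1 r.1 (N p r) ⊗ₖ Matrix.single p.2 r.2 (1 : F) := by
      rw [Matrix.single_kronecker_single, mul_one]
    rw [e1]
    exact h2 _ _
  intro M
  obtain ⟨N, rfl⟩ := AIRR_surj e P M
  exact h3 N

/-- AIRR: the tensor products of the elements of a spanning set act absolutely irreducibly. -/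
theorem AIRR (e : Fin n ≃ Fin 3 × Fin 3) (P : GL (Fin n) F)
    (S : Set (Matrix (Fin 3) (Fin 3) F)) (hS : Submodule.span F S = ⊤)
    (T : Set (Matrix (Fin n) (Fin n) F)) (hT : ∀ a ∈ S, ∀ b ∈ S, tmat e P a b ∈ T) :
    ActsAbsolutelyIrreducibly T := by
  refine ⟨?_, ?_⟩
  · intro W hW
    let A : Submodule F (Matrix (Fin n) (Fin n) F) :=
      { carrier := {M | ∀ w ∈ W, M *ᵥ w ∈ W}
        add_mem' := by
          intro a b ha hb w hw
          rw [Matrix.add_mulVec]
          exact W.add_mem (ha w hw) (hb w hw)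
        zero_mem' := by
          intro w _
          rw [Matrix.zero_mulVec]
          exact W.zero_mem
        smul_mem' := by
          intro c a ha w hw
          rw [Matrix.smul_mulVec]
          exact W.smul_mem c (ha w hw) }
    have hA : ∀ a ∈ S, ∀ b ∈ S, tmat e P a b ∈ A := by
      intro a ha b hb w hw
      have h1 := hW _ (hT a ha b hb)
      have h2 : Matrix.toLin' (tmat e P a b) w ∈ W.map (Matrix.toLin' (tmat e P a b)) :=
        Submodule.mem_map_of_mem hw
      rw [Matrix.toLin'_apply] at h2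
      exact h1 h2
    have hall := AIRR_key e P S hS A hA
    by_cases hbot : W = ⊥
    · exact Or.inl hbot
    right
    obtain ⟨w, hw, hw0⟩ := Submodule.exists_mem_ne_zero_of_ne_bot hbot
    obtain ⟨j, hj⟩ : ∃ j, w j ≠ 0 := by
      by_contra hno
      push Not at hno
      exact hw0 (funext hno)
    rw [Submodule.eq_top_iff']
    intro v
    have h3 : (Matrix.of fun i k => v i * (Pi.single j (w j)⁻¹ : Fin n → F) k) *ᵥ w ∈ W :=
      hall (Matrix.of fun i k => v i * (Pi.single j (w j)⁻¹ : Fin n → F) k) w hw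
    have h4 : (Matrix.of fun i k => v i * (Pi.single j (w j)⁻¹ : Fin n → F) k) *ᵥ w = v := by
      funext i
      simp only [Matrix.mulVec, dotProduct, Matrix.of_apply]
      rw [Finset.sum_eq_single j]
      · rw [Pi.single_eq_same, mul_assoc, inv_mul_cancel₀ hj, mul_one]
      · intro k _ hk
        rw [Pi.single_eq_of_ne hk, mul_zero, zero_mul]
      · intro h
        exact absurd (Finset.mem_univ j) h
    rw [h4] at h3
    exact h3
  · intro M hM
    let A : Submodule F (Matrix (Fin n) (Fin n) F) :=
      { carrier := {N | M * N = N * M}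
        add_mem' := by
          intro a b ha hb
          show M * (a + b) = (a + b) * M
          rw [mul_add, add_mul, ha, hb]
        zero_mem' := by
          show M * 0 = 0 * M
          rw [mul_zero, zero_mul]
        smul_mem' := by
          intro c a ha
          show M * (c • a) = (c • a) * M
          rw [mul_smul_comm, smul_mul_assoc, ha] }
    have hA : ∀ a ∈ S, ∀ b ∈ S, tmat e P a b ∈ A := fun a ha b hb => hM _ (hT a ha b hb)
    have hall := AIRR_key e P S hS A hA
    have hsc : M ∈ Set.range (Matrix.scalar (Fin n)) :=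
      Matrix.mem_range_scalar_iff_commute_single'.mpr
        (fun i j => (hall (Matrix.single i j 1)).symm)
    obtain ⟨c, hc⟩ := hsc
    refine ⟨c, ?_⟩
    rw [← hc, Matrix.smul_one_eq_diagonal]
    rfl

end Cfsg.Agent.Lib.Helper44.BAD
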