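import Mathlib
import Cfsg.Agent.Lib.Helper22.BFDefs

/-!
# S4503 project (helper22), piece TRIB: `Loc` gives the trichotomy `Tri` (helper28)
-/

set_option autoImplicit false

namespace Cfsg.Agent.Lib.Helper28.BFT

open Cfsg Cfsg.Agent.Lib.Helper22.BFD
open scoped ComplexConjugate

universe u

variable {G : Type u} [Group G] [Fintype G]

theorem trib_mem_Kf (p : ℕ) (z y : G) : y ∈ Kf p z ↔ y * z = z * y ∧ ¬ p ∣ orderOf y := by
  unfold Kf
  simp only [Finset.mem_filter, Finset.mem_univ, true_and]

/-- PIECE TRIB -/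
theorem tri_of_loc (p : ℕ) [Fact p.Prime] (ζ : ℂ) (z : G) (hz : orderOf z = p)
    (hfidx : (Subgroup.centralizer ({z} : Set G)).relIndex
      (Subgroup.normalizer ((Subgroup.zpowers z : Subgroup G) : Set G)) = (Ef p z).card)
    (φ : G → ℂ) (hloc : Loc p ζ z φ) : Tri p z φ := by
  classical
  obtain ⟨T, θ, D, κ, v, d, e, hCT, hTN, hκ, hD, hv, hd, hθ1, he, hφ, hθ, hθN, hDalt⟩ := hloc
  have hp : p.Prime := Fact.out
  have hz1 : z ≠ 1 := by
    intro h
    rw [h, orderOf_one] at hz
    exact hp.one_lt.ne hz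
  have hTpos : (Nat.card T : ℂ) ≠ 0 := by
    exact_mod_cast (Nat.card_pos (α := T)).ne'
  have hκ0 : ∀ n ∈ Subgroup.normalizer ((Subgroup.zpowers z : Subgroup G) : Set G),
      κ n ≠ 0 := by
    intro n hn h0
    have h1 := hκ n hn
    rw [h0, ZMod.val_zero, pow_zero] at h1
    apply hz1
    have h2 : z = n * (n⁻¹ * z * n) * n⁻¹ := by group
    rw [h2, h1]; group
  rcases hθ with hθ0 | ⟨hθ1', hTeq⟩
  · left
    intro t ht
    have key : (Nat.card T : ℂ) * ∑ y ∈ Kf p z, φ (z ^ t.val * y) = 0 := by
      rw [Finset.mul_sum, Finset.sum_congr rfl (fun s hs => hφ t ht s hs), Finset.sum_comm]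
      apply Finset.sum_eq_zero
      intro n _
      by_cases hn : n ∈ Subgroup.normalizer ((Subgroup.zpowers z : Subgroup G) : Set G)
      · simp only [if_pos hn]
        rw [← Finset.mul_sum, hθN n hn, hθ0, mul_zero]
      · simp only [if_neg hn, Finset.sum_const_zero]
    exact (mul_eq_zero.mp key).resolve_left hTpos
  · right
    have hKf : ∀ n ∈ Subgroup.normalizer ((Subgroup.zpowers z : Subgroup G) : Set G),
        ∀ s ∈ Kf p z, n⁻¹ * s * n ∈ Kf p z := by
      intro n hn s hs
      rw [trib_mem_Kf] at hs ⊢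
      refine ⟨?_, ?_⟩
      · have h1 : n * z * n⁻¹ ∈ Subgroup.zpowers z :=
          (Subgroup.mem_normalizer_iff.mp hn z).mp (Subgroup.mem_zpowers z)
        obtain ⟨k, hk⟩ := Subgroup.mem_zpowers_iff.mp h1
        have h2 : s * (n * z * n⁻¹) = (n * z * n⁻¹) * s := by
          rw [← hk]
          exact (Commute.zpow_right (show Commute s z from hs.1) k).eq
        calc n⁻¹ * s * n * z = n⁻¹ * (s * (n * z * n⁻¹)) * n := by group
          _ = n⁻¹ * ((n * z * n⁻¹) * s) * n := by rw [h2]
          _ = z * (n⁻¹ * s * n) := by group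
      · have h3 := MulEquiv.orderOf_eq (MulAut.conj n⁻¹) s
        simp only [MulAut.conj_apply, inv_inv] at h3
        rw [h3]; exact hs.2
    have hS : ∀ t : ZMod p, t ≠ 0 → ∀ s ∈ Kf p z, (Nat.card T : ℂ) * φ (z ^ t.val * s) =
        ∑ n : G, if n ∈ Subgroup.normalizer ((Subgroup.zpowers z : Subgroup G) : Set G)
          then D (κ n * t) else 0 := by
      intro t ht s hs
      rw [hφ t ht s hs]
      apply Finset.sum_congr rfl
      intro n _
      by_cases hn : n ∈ Subgroup.normalizer ((Subgroup.zpowers z : Subgroup G) : Set G)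
      · rw [if_pos hn, if_pos hn, hθ1' _ (hKf n hn s hs), mul_one]
      · rw [if_neg hn, if_neg hn]
    have h1K : (1 : G) ∈ Kf p z := by
      rw [trib_mem_Kf]
      refine ⟨by simp, ?_⟩
      rw [orderOf_one]
      exact hp.not_dvd_one
    have hflat : ∀ t : ZMod p, t ≠ 0 → ∀ y ∈ Kf p z, φ (z ^ t.val * y) = φ (z ^ t.val) := by
      intro t ht y hy
      have h1 := hS t ht y hy
      have h2 := hS t ht 1 h1K
      rw [mul_one] at h2
      exact mul_left_cancel₀ hTpos (h1.trans h2.symm)
    have hcardN : (∑ n : G, if n ∈ Subgroup.normalizer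
        ((Subgroup.zpowers z : Subgroup G) : Set G) then (1 : ℂ) else 0) = (Nat.card T : ℂ) := by
      rw [hTeq, Finset.sum_boole, Nat.card_eq_fintype_card, Fintype.card_subtype]
    have hconst : ∀ c : ℂ, (∑ n : G, if n ∈ Subgroup.normalizer
        ((Subgroup.zpowers z : Subgroup G) : Set G) then c else 0) = (Nat.card T : ℂ) * c := by
      intro c
      rw [← hcardN, Finset.sum_mul]
      apply Finset.sum_congr rfl
      intro n _
      split_ifs <;> simp
    have hDconst : ∀ ε : ℂ, (∀ t : ZMod p, t ≠ 0 → D t = ε) →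
        ∀ t : ZMod p, t ≠ 0 → ∀ y ∈ Kf p z, φ (z ^ t.val * y) = ε := by
      intro ε hε t ht y hy
      have h1 := hS t ht y hy
      have h2 : (∑ n : G, if n ∈ Subgroup.normalizer
          ((Subgroup.zpowers z : Subgroup G) : Set G) then D (κ n * t) else 0) =
          ∑ n : G, if n ∈ Subgroup.normalizer
            ((Subgroup.zpowers z : Subgroup G) : Set G) then ε else 0 := by
        apply Finset.sum_congr rfl
        intro n _
        by_cases hn : n ∈ Subgroup.normalizer ((Subgroup.zpowers z : Subgroup G) : Set G)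
        · rw [if_pos hn, if_pos hn, hε _ (mul_ne_zero (hκ0 n hn) ht)]
        · rw [if_neg hn, if_neg hn]
      rw [h2, hconst] at h1
      exact mul_left_cancel₀ hTpos h1
    have hsum : ∀ c : ℂ,
        (∑ t ∈ Finset.univ.filter (fun t : ZMod p => t ≠ 0), D t = c) →
        ∑ t ∈ Finset.univ.filter (fun t : ZMod p => t ≠ 0), φ (z ^ t.val) = c := by
      intro c hc
      have h1 : (Nat.card T : ℂ) * ∑ t ∈ Finset.univ.filter (fun t : ZMod p => t ≠ 0),
          φ (z ^ t.val) = (Nat.card T : ℂ) * c := by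
        rw [Finset.mul_sum]
        have h2 : ∀ t ∈ Finset.univ.filter (fun t : ZMod p => t ≠ 0),
            (Nat.card T : ℂ) * φ (z ^ t.val) =
            ∑ n : G, if n ∈ Subgroup.normalizer ((Subgroup.zpowers z : Subgroup G) : Set G)
              then D (κ n * t) else 0 := by
          intro t ht
          have ht' : t ≠ 0 := (Finset.mem_filter.mp ht).2
          have h3 := hS t ht' 1 h1K
          rwa [mul_one] at h3
        rw [Finset.sum_congr rfl h2, Finset.sum_comm, ← hconst]
        apply Finset.sum_congr rfl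
        intro n _
        by_cases hn : n ∈ Subgroup.normalizer ((Subgroup.zpowers z : Subgroup G) : Set G)
        · simp only [if_pos hn]
          rw [← hc]
          refine Finset.sum_equiv (Equiv.mulLeft₀ (κ n) (hκ0 n hn)) ?_ ?_
          · intro t
            simp [hκ0 n hn]
          · intro t _
            simp
        · simp only [if_neg hn, Finset.sum_const_zero]
      exact mul_left_cancel₀ hTpos h1
    have hsP : sP p z φ = φ 1 +
        ∑ t ∈ Finset.univ.filter (fun t : ZMod p => t ≠ 0), φ (z ^ t.val) := by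
      unfold sP
      rw [Finset.filter_ne', ← Finset.add_sum_erase Finset.univ _ (Finset.mem_univ (0 : ZMod p)),
        ZMod.val_zero, pow_zero]
    have heE : (e : ℂ) = ((Ef p z).card : ℂ) := by
      rw [he, hTeq, hfidx]
    rcases hDalt with hD1 | hD1 | hDe | hDe
    · left
      exact ⟨1, Or.inl rfl, hDconst 1 hD1⟩
    · left
      exact ⟨-1, Or.inr rfl, hDconst (-1) hD1⟩
    · right
      refine ⟨hflat, Or.inl ?_⟩
      rw [hsP, hsum _ hDe, heE]
    · right
      refine ⟨hflat, Or.inr ?_⟩
      rw [hsP, hsum _ hDe, heE, sub_eq_add_neg]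

end Cfsg.Agent.Lib.Helper28.BFT
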