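import Mathlib

/-!
# S0997 (helper5, Brauer–Tuan, cases B1/B2): piece BW-AR3 (pure arithmetic)

`p = 2 ^ m + 1`, `m ≥ 3`, `2 f = p + 1`, `d ∣ 2 ^ b f`, `d ≡ -1 (mod p)`, `d ≤ f ^ 2` imply
`d = 2 ^ m`.
-/

set_option autoImplicit false

namespace Cfsg.Agent.Lib.Helper5.BW

/-- BW-AR3 -/
theorem fermat_deg (p m b f d : ℕ) (hm : 3 ≤ m) (hpm : p = 2 ^ m + 1) (hf : 2 * f = p + 1)
    (hdvd : d ∣ 2 ^ b * f) (hmod : (d : ℤ) ≡ -1 [ZMOD p]) (hle : d ≤ f * f) :
    d = 2 ^ m := by
  obtain ⟨k, rfl⟩ : ∃ k, m = k + 1 := ⟨m - 1, by omega⟩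
  obtain ⟨E, hE⟩ : ∃ E, E = 2 ^ k := ⟨_, rfl⟩
  have hE4 : 4 ≤ E := by
    rw [hE]
    calc 4 = 2 ^ 2 := by norm_num
      _ ≤ 2 ^ k := Nat.pow_le_pow_right (by norm_num) (by omega)
  have hEeven : ∃ E', E = 2 * E' := by
    obtain ⟨k', rfl⟩ : ∃ k', k = k' + 1 := ⟨k - 1, by omega⟩
    exact ⟨2 ^ k', by rw [hE, pow_succ]; ring⟩
  have h2m : 2 ^ (k + 1) = 2 * E := by
    rw [hE, pow_succ]
    ring
  have hp : p = 2 * E + 1 := by rw [hpm, h2m]
  have hfE : f = E + 1 := by omega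
  rw [h2m]
  -- the decomposition of `d`
  obtain ⟨d1, d', hd1, hd', hdd⟩ := (Nat.dvd_mul).mp hdvd
  obtain ⟨a, -, rfl⟩ := (Nat.dvd_prime_pow Nat.prime_two).mp hd1
  obtain ⟨e', he'⟩ := hd'
  have hpd : p ∣ d + 1 := by
    have h1 : (p : ℤ) ∣ (d : ℤ) - (-1) := Int.modEq_iff_dvd.mp hmod.symm
    have h2 : (p : ℤ) ∣ ((d + 1 : ℕ) : ℤ) := by
      push_cast
      rw [sub_neg_eq_add] at h1
      exact h1
    exact Int.natCast_dvd_natCast.mp h2
  have hX : p ∣ 2 ^ a + 2 * e' := by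
    have h1 : (d + 1) * (2 * e') = p * 2 ^ a + (2 ^ a + 2 * e') := by
      rw [← hdd]
      have h0 : 2 ^ a * d' * (2 * e') = 2 ^ a * (2 * f) := by
        rw [he']
        ring
      calc (2 ^ a * d' + 1) * (2 * e') = 2 ^ a * d' * (2 * e') + 2 * e' := by ring
        _ = 2 ^ a * (2 * f) + 2 * e' := by rw [h0]
        _ = 2 ^ a * (p + 1) + 2 * e' := by rw [hf]
        _ = p * 2 ^ a + (2 ^ a + 2 * e') := by ring
    have h2 : p ∣ (d + 1) * (2 * e') := Dvd.dvd.mul_right hpd _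
    rw [h1] at h2
    exact (Nat.dvd_add_right (Dvd.intro _ rfl)).mp h2
  obtain ⟨c, hc⟩ := hX
  have he'pos : 1 ≤ e' := by
    rcases Nat.eq_zero_or_pos e' with h | h
    · rw [h, mul_zero] at he'
      omega
    · exact h
  have hd'pos : 1 ≤ d' := by
    rcases Nat.eq_zero_or_pos d' with h | h
    · rw [h, zero_mul] at he'
      omega
    · exact h
  have he'le : e' ≤ E + 1 := by
    have h1 : e' ≤ d' * e' := Nat.le_mul_of_pos_left e' hd'pos
    omega
  -- the size bound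
  have ha : a < 2 * k + 2 := by
    by_contra hge
    have hge' : 2 * k + 2 ≤ a := by omega
    have h1 : 2 ^ (2 * k + 2) ≤ 2 ^ a := Nat.pow_le_pow_right (by norm_num) hge'
    have h2 : 2 ^ (2 * k + 2) = 4 * E * E := by
      rw [hE]
      ring
    have h3 : 2 ^ a ≤ 2 ^ a * d' := Nat.le_mul_of_pos_right _ hd'pos
    rw [← hdd, hfE] at hle
    nlinarith
  rcases Nat.lt_or_ge a (k + 1) with hak | hak
  · -- `a ≤ k`
    exfalso
    have hTE : 2 ^ a ≤ E := by
      rw [hE]
      exact Nat.pow_le_pow_right (by norm_num) (by omega)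
    have hTpos : 1 ≤ 2 ^ a := Nat.one_le_two_pow
    have hc1 : c = 1 := by
      rcases Nat.lt_or_ge c 1 with h0 | h1
      · have h0' : c = 0 := by omega
        rw [h0', mul_zero] at hc
        omega
      · rcases Nat.lt_or_ge c 2 with h2 | h2
        · omega
        · have h3 : 2 * p ≤ p * c := by nlinarith
          omega
    rw [hc1, mul_one] at hc
    have ha0 : a = 0 := by
      by_contra h
      obtain ⟨a', rfl⟩ : ∃ a', a = a' + 1 := ⟨a - 1, by omega⟩
      rw [pow_succ] at hc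
      omega
    rw [ha0, pow_zero] at hc
    have he'E : e' = E := by omega
    rw [he'E, hfE] at he'
    rcases Nat.lt_or_ge d' 2 with h | h
    · have h1 : d' = 1 := by omega
      rw [h1] at he'
      omega
    · nlinarith
  · -- `a = k + 1 + j`
    obtain ⟨j, rfl⟩ : ∃ j, a = k + 1 + j := ⟨a - (k + 1), by omega⟩
    have hjk : j ≤ k := by omega
    obtain ⟨T, hT⟩ : ∃ T, T = 2 ^ j := ⟨_, rfl⟩
    have hTE : T ≤ E := by
      rw [hT, hE]
      exact Nat.pow_le_pow_right (by norm_num) hjk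
    have hTpos : 1 ≤ T := by
      rw [hT]
      exact Nat.one_le_two_pow
    have hpow : 2 ^ (k + 1 + j) = 2 * E * T := by rw [pow_add, h2m, hT]
    rw [hpow] at hc hdd
    rcases lt_trichotomy c T with hcT | hcT | hcT
    · exfalso
      have h3 : p * (c + 1) ≤ p * T := Nat.mul_le_mul_left p (by omega)
      rw [hp] at h3 hc
      nlinarith
    · exfalso
      rw [hcT, hp] at hc
      have h2e : 2 * e' = T := by nlinarith
      have hj1 : j ≠ 0 := by
        rintro rfl
        rw [pow_zero] at hT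
        omega
      obtain ⟨j', rfl⟩ : ∃ j', j = j' + 1 := ⟨j - 1, by omega⟩
      rw [pow_succ] at hT
      have he'T : e' = 2 ^ j' := by omega
      have hj'0 : j' = 0 := by
        by_contra h
        obtain ⟨j'', rfl⟩ : ∃ j'', j' = j'' + 1 := ⟨j' - 1, by omega⟩
        rw [pow_succ] at he'T
        obtain ⟨E', hE'⟩ := hEeven
        rw [he'T, hfE, hE'] at he'
        have h5 : d' * (2 ^ j'' * 2) = 2 * (d' * 2 ^ j'') := by ring
        omega
      rw [hj'0, pow_zero] at he'T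
      rw [he'T, mul_one] at he'
      have hT2 : T = 2 := by omega
      rw [← hdd, hT2, ← he', hfE] at hle
      nlinarith
    · have h1 : p * (T + 1) ≤ p * c := Nat.mul_le_mul_left p (by omega)
      rw [hp] at h1 hc
      have h2 : T + 2 * E + 1 ≤ 2 * e' := by nlinarith
      have hT1 : T = 1 := by omega
      have he'f : e' = E + 1 := by omega
      have hd'1 : d' = 1 := by
        rw [he'f, hfE] at he'
        have h3 : d' * (E + 1) = 1 * (E + 1) := by omega
        exact Nat.eq_of_mul_eq_mul_right (by omega) h3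
      rw [← hdd, hd'1, hT1]
      ring

end Cfsg.Agent.Lib.Helper5.BW
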