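import Mathlib
import Cfsg.Prelude.Def_Involutions
import Cfsg.Agent.Lib.Helper28.SE
import Cfsg.Agent.Lib.Helper28.SE2

set_option autoImplicit false

namespace Cfsg.Agent.Lib.Helper28

variable {G : Type*} [Group G]

/-- The hypothesis on centralizers of involutions. -/
def CInv (G : Type*) [Group G] : Prop :=
  ∀ t : G, orderOf t = 2 → IsMulCommutative (Subgroup.centralizer ({t} : Set G)) ∧
    ∀ c ∈ Subgroup.centralizer ({t} : Set G), c ^ 2 = 1

theorem cinv_pgroup (hC : CInv G) {t : G} (ht : orderOf t = 2) :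
    IsPGroup 2 (Subgroup.centralizer ({t} : Set G)) := by
  intro g
  refine ⟨1, ?_⟩
  apply Subtype.ext
  simpa using (hC t ht).2 g.1 g.2

theorem cit_exists_central [Finite G] (T : Sylow 2 G) (hnc : ¬ IsCyclic (T : Subgroup G))
    (hC : CInv G) : ∃ z ∈ (T : Subgroup G), orderOf z = 2 ∧
      Subgroup.centralizer ({z} : Set G) = (T : Subgroup G) := by
  have : Fact (Nat.Prime 2) := ⟨Nat.prime_two⟩
  have hnt : Nontrivial (T : Subgroup G) := by
    by_contra h
    rw [not_nontrivial_iff_subsingleton] at h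
    exact hnc isCyclic_of_subsingleton
  have hcn : Nontrivial (Subgroup.center (T : Subgroup G)) := T.isPGroup'.center_nontrivial
  have hpc : IsPGroup 2 (Subgroup.center (T : Subgroup G)) := T.isPGroup'.to_subgroup _
  obtain ⟨n, hn⟩ := IsPGroup.iff_card.1 hpc
  have h2 : 2 ∣ Nat.card (Subgroup.center (T : Subgroup G)) := by
    rw [hn]
    have h1 : 1 < Nat.card (Subgroup.center (T : Subgroup G)) := Finite.one_lt_card
    rw [hn] at h1
    have : n ≠ 0 := by rintro rfl; simp at h1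
    exact dvd_pow_self 2 this
  obtain ⟨x, hx⟩ := exists_prime_orderOf_dvd_card' (G := Subgroup.center (T : Subgroup G)) 2 h2
  have hxo : orderOf ((x : (T : Subgroup G)) : G) = 2 := by
    rw [Subgroup.orderOf_coe, Subgroup.orderOf_coe]; exact hx
  refine ⟨((x : (T : Subgroup G)) : G), (x : (T : Subgroup G)).2, hxo, ?_⟩
  apply T.is_maximal' (cinv_pgroup hC hxo)
  intro g hg
  rw [Subgroup.mem_centralizer_singleton_iff]
  have := (Subgroup.mem_center_iff.1 x.2) ⟨g, hg⟩
  have := congrArg Subtype.val this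
  simpa using this

theorem cit_comm [Finite G] (T : Sylow 2 G) (hnc : ¬ IsCyclic (T : Subgroup G))
    (hC : CInv G) {a b : G} (ha : a ∈ (T : Subgroup G)) (hb : b ∈ (T : Subgroup G)) :
    a * b = b * a := by
  obtain ⟨z, -, hz, hzT⟩ := cit_exists_central T hnc hC
  have hcomm := (hC z hz).1
  rw [← hzT] at ha hb
  have := hcomm.is_comm.comm ⟨a, ha⟩ ⟨b, hb⟩
  simpa using congrArg Subtype.val this

theorem cit_sq [Finite G] (T : Sylow 2 G) (hnc : ¬ IsCyclic (T : Subgroup G))
    (hC : CInv G) {a : G} (ha : a ∈ (T : Subgroup G)) : a * a = 1 := by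
  obtain ⟨z, -, hz, hzT⟩ := cit_exists_central T hnc hC
  rw [← hzT] at ha
  have := (hC z hz).2 a ha
  rwa [pow_two] at this

theorem cit_order [Finite G] (T : Sylow 2 G) (hnc : ¬ IsCyclic (T : Subgroup G))
    (hC : CInv G) {a : G} (ha : a ∈ (T : Subgroup G)) (ha1 : a ≠ 1) : orderOf a = 2 :=
  inv_iff.2 ⟨ha1, cit_sq T hnc hC ha⟩

theorem cit_centralizer [Finite G] (T : Sylow 2 G) (hnc : ¬ IsCyclic (T : Subgroup G))
    (hC : CInv G) {t : G} (ht : t ∈ (T : Subgroup G)) (ht1 : t ≠ 1) {g : G}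
    (hg : g * t = t * g) : g ∈ (T : Subgroup G) := by
  have hto := cit_order T hnc hC ht ht1
  have hle : (T : Subgroup G) ≤ Subgroup.centralizer ({t} : Set G) := by
    intro a ha
    rw [Subgroup.mem_centralizer_singleton_iff]
    exact cit_comm T hnc hC ha ht
  have := T.is_maximal' (cinv_pgroup hC hto) hle
  rw [← this, Subgroup.mem_centralizer_singleton_iff]
  exact hg

theorem cit_exists_ne_one [Finite G] (T : Sylow 2 G) (hnc : ¬ IsCyclic (T : Subgroup G))
    (hC : CInv G) : ∃ z ∈ (T : Subgroup G), z ≠ 1 := by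
  obtain ⟨z, hzT, hz, -⟩ := cit_exists_central T hnc hC
  exact ⟨z, hzT, (inv_iff.1 hz).1⟩

theorem cit_inv_mem [Finite G] (T : Sylow 2 G) (hnc : ¬ IsCyclic (T : Subgroup G))
    (hC : CInv G) {t : G} (htN : t ∈ Subgroup.normalizer ((T : Subgroup G) : Set G))
    (ht : orderOf t = 2) : t ∈ (T : Subgroup G) := by
  obtain ⟨z, hzT, hz1⟩ := cit_exists_ne_one T hnc hC
  have htt := (inv_iff.1 ht).2
  have hti : t⁻¹ = t := inv_inv_eq htt
  have hz₁ : t * z * t⁻¹ ∈ (T : Subgroup G) := (Subgroup.mem_normalizer_iff.1 htN z).1 hzT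
  have hz' : z * (t * z * t⁻¹) ∈ (T : Subgroup G) := mul_mem hzT hz₁
  have hfix : t * (z * (t * z * t⁻¹)) = (z * (t * z * t⁻¹)) * t := by
    have e1 : t * (z * (t * z * t⁻¹)) = (t * z * t⁻¹) * z * t := by
      rw [hti]; simp only [mul_assoc]
    rw [e1, cit_comm T hnc hC hz₁ hzT]
  by_cases h1 : z * (t * z * t⁻¹) = 1
  · have hzz := cit_sq T hnc hC hzT
    have e2 : t * z * t⁻¹ = z := by
      have : z * (t * z * t⁻¹) = z * z := by rw [h1, hzz]
      exact mul_left_cancel this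
    apply cit_centralizer T hnc hC hzT hz1
    calc t * z = t * z * t⁻¹ * t := by group
      _ = z * t := by rw [e2]
  · exact cit_centralizer T hnc hC hz' h1 hfix

theorem cit_card [Finite G] (T : Sylow 2 G) (hnc : ¬ IsCyclic (T : Subgroup G)) :
    4 ≤ Nat.card (T : Subgroup G) := by
  have : Fact (Nat.Prime 2) := ⟨Nat.prime_two⟩
  obtain ⟨n, hn⟩ := IsPGroup.iff_card.1 T.isPGroup'
  rw [hn]
  rcases n with _ | _ | n
  · exfalso
    have : Subsingleton (T : Subgroup G) := by
      rw [← Finite.card_le_one_iff_subsingleton, hn]; simp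
    exact hnc isCyclic_of_subsingleton
  · exfalso
    exact hnc (isCyclic_of_prime_card (p := 2) (by simpa using hn))
  · calc 4 = 2 ^ 2 := by norm_num
      _ ≤ 2 ^ (n + 1 + 1) := Nat.pow_le_pow_right (by norm_num) (by omega)

/-- S1226. -/
theorem cit_se [Finite G] (T : Sylow 2 G) (hnc : ¬ IsCyclic (T : Subgroup G))
    (hnn : ¬ (T : Subgroup G).Normal) (hC : CInv G) :
    Cfsg.IsStronglyEmbedded (Subgroup.normalizer ((T : Subgroup G) : Set G)) := by
  have : Fact (Nat.Prime 2) := ⟨Nat.prime_two⟩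
  refine ⟨fun h => hnn (Subgroup.normalizer_eq_top_iff.1 h), ?_, ?_⟩
  · obtain ⟨z, hzT, hz, -⟩ := cit_exists_central T hnc hC
    have h2 := Subgroup.orderOf_dvd_natCard _ (Subgroup.le_normalizer (H := (T : Subgroup G)) hzT)
    rw [hz] at h2
    exact even_iff_two_dvd.2 h2
  · intro g hg
    by_contra hodd
    rw [Nat.not_odd_iff_even, even_iff_two_dvd] at hodd
    obtain ⟨x, hx⟩ := exists_prime_orderOf_dvd_card' 2 hodd
    have hxo : orderOf (x : G) = 2 := by rw [Subgroup.orderOf_coe]; exact hx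
    have hx1 : (x : G) ∈ (T : Subgroup G) := cit_inv_mem T hnc hC x.2.1 hxo
    have hx2 : g⁻¹ * (x : G) * g ∈ (T : Subgroup G) := by
      apply cit_inv_mem T hnc hC ((mem_conj_iff _ g _).1 x.2.2)
      simpa using inv_conj hxo g⁻¹
    have hx2' : g⁻¹ * (x : G) * g ≠ 1 := by
      intro h
      apply (inv_iff.1 hxo).1
      have : (x : G) = g * (g⁻¹ * (x : G) * g) * g⁻¹ := by group
      rw [this, h]; group
    apply hg
    rw [Subgroup.mem_normalizer_iff]
    intro h
    constructor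
    · intro hh
      apply cit_centralizer T hnc hC hx1 (inv_iff.1 hxo).1
      have := cit_comm T hnc hC hh hx2
      calc g * h * g⁻¹ * (x : G) = g * (h * (g⁻¹ * (x : G) * g)) * g⁻¹ := by group
        _ = g * ((g⁻¹ * (x : G) * g) * h) * g⁻¹ := by rw [this]
        _ = (x : G) * (g * h * g⁻¹) := by group
    · intro hh
      apply cit_centralizer T hnc hC hx2 hx2'
      have := cit_comm T hnc hC hh hx1
      calc h * (g⁻¹ * (x : G) * g) = g⁻¹ * ((g * h * g⁻¹) * (x : G)) * g := by group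
        _ = g⁻¹ * ((x : G) * (g * h * g⁻¹)) * g := by rw [this]
        _ = g⁻¹ * (x : G) * g * h := by group

section D

variable [Finite G] (T : Sylow 2 G) (hnc : ¬ IsCyclic (T : Subgroup G))
  (hnn : ¬ (T : Subgroup G).Normal) (hC : CInv G) {u : G} (hu : orderOf u = 2)
  (huH : u ∉ Subgroup.normalizer ((T : Subgroup G) : Set G))

/-- `D = H ∩ uHu⁻¹` where `H = N_G(T)`. -/
abbrev citD (T : Sylow 2 G) (u : G) : Subgroup G :=
  Subgroup.normalizer ((T : Subgroup G) : Set G) ⊓
    (Subgroup.normalizer ((T : Subgroup G) : Set G)).map (MulAut.conj u).toMonoidHom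

include hnc hnn hC huH in
theorem cit_D_inf_T {d : G} (hd : d ∈ citD T u) (hdT : d ∈ (T : Subgroup G)) : d = 1 := by
  by_contra h1
  have hdo := cit_order T hnc hC hdT h1
  exact huH (se_mem_of_conj_mem (cit_se T hnc hnn hC) hdo hd.1 ((mem_conj_iff _ u d).1 hd.2))

include hnc hnn hC hu huH

theorem cit_D_trans {s t : G} (hs : s ∈ (T : Subgroup G)) (hs1 : s ≠ 1)
    (ht : t ∈ (T : Subgroup G)) (ht1 : t ≠ 1) : ∃ d ∈ citD T u, d * s * d⁻¹ = t :=
  se_conj_in (cit_se T hnc hnn hC) hu huH (cit_order T hnc hC hs hs1)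
    (Subgroup.le_normalizer hs) (cit_order T hnc hC ht ht1) (Subgroup.le_normalizer ht)

theorem cit_D_free {d s : G} (hd : d ∈ citD T u) (hs : s ∈ (T : Subgroup G)) (hs1 : s ≠ 1)
    (h : d * s * d⁻¹ = s) : d = 1 := by
  apply cit_D_inf_T T hnc hnn hC huH hd
  apply cit_centralizer T hnc hC hs hs1
  calc d * s = d * s * d⁻¹ * d := by group
    _ = s * d := by rw [h]

theorem cit_card_D : Nat.card (citD T u) = Nat.card (T : Subgroup G) - 1 := by
  obtain ⟨s, hs, hs1⟩ := cit_exists_ne_one T hnc hC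
  have h1 : Nat.card (citD T u) = ((citD T u : Subgroup G) : Set G).ncard :=
    Nat.card_coe_set_eq _
  have h2 : Nat.card (T : Subgroup G) = ((T : Subgroup G) : Set G).ncard :=
    Nat.card_coe_set_eq _
  rw [h1, h2, ← Set.ncard_sdiff_singleton_of_mem (one_mem (T : Subgroup G))]
  apply Set.ncard_congr (fun d _ => d * s * d⁻¹)
  · intro d hd
    refine ⟨(Subgroup.mem_normalizer_iff.1 hd.1 s).1 hs, ?_⟩
    intro h
    apply hs1
    have h' : d * s * d⁻¹ = 1 := h
    have : s = d⁻¹ * (d * s * d⁻¹) * d := by group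
    rw [this, h']; group
  · intro d e hd he h
    have hde : e⁻¹ * d ∈ citD T u := mul_mem (inv_mem he) hd
    have : e⁻¹ * d = 1 := by
      apply cit_D_free T hnc hnn hC hu huH hde hs hs1
      have : e⁻¹ * d * s * (e⁻¹ * d)⁻¹ = e⁻¹ * (d * s * d⁻¹) * e := by group
      rw [this, h]; group
    calc d = e * (e⁻¹ * d) := by group
      _ = e := by rw [this, mul_one]
  · intro t ht
    obtain ⟨d, hd, hdt⟩ := cit_D_trans T hnc hnn hC hu huH hs hs1 ht.1 ht.2
    exact ⟨d, hd, hdt⟩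

theorem cit_D_inverted {d : G} (hd : d ∈ citD T u) : u * d * u⁻¹ = d⁻¹ := by
  have hse := cit_se T hnc hnn hC
  have hui : u⁻¹ = u := inv_inv_eq (inv_iff.1 hu).2
  have hne : ((1 : G) : G ⧸ Subgroup.normalizer ((T : Subgroup G) : Set G)) ≠ (u : G ⧸ _) := by
    intro h
    rw [QuotientGroup.eq] at h
    exact huH (by simpa using h)
  have hcount := se_count hse _ _ hne
  have hc1 : Nat.card {i : G // orderOf i = 2 ∧
      i • ((1 : G) : G ⧸ Subgroup.normalizer ((T : Subgroup G) : Set G)) = (u : G ⧸ _)}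
      = Set.ncard {i : G | orderOf i = 2 ∧
      i • ((1 : G) : G ⧸ Subgroup.normalizer ((T : Subgroup G) : Set G)) = (u : G ⧸ _)} :=
    Nat.card_coe_set_eq _
  have hc2 : Nat.card {t : G // orderOf t = 2 ∧ t ∈ Subgroup.normalizer ((T : Subgroup G) : Set G)}
      = Set.ncard {t : G | orderOf t = 2 ∧ t ∈ Subgroup.normalizer ((T : Subgroup G) : Set G)} :=
    Nat.card_coe_set_eq _
  have hc3 : {t : G | orderOf t = 2 ∧ t ∈ Subgroup.normalizer ((T : Subgroup G) : Set G)}
      = ((T : Subgroup G) : Set G) \ {1} := by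
    ext t
    constructor
    · rintro ⟨h1, h2⟩
      exact ⟨cit_inv_mem T hnc hC h2 h1, (inv_iff.1 h1).1⟩
    · rintro ⟨h1, h2⟩
      exact ⟨cit_order T hnc hC h1 h2, Subgroup.le_normalizer h1⟩
  have hD : Nat.card (citD T u) = ((citD T u : Subgroup G) : Set G).ncard :=
    Nat.card_coe_set_eq _
  have hT : Nat.card (T : Subgroup G) = ((T : Subgroup G) : Set G).ncard :=
    Nat.card_coe_set_eq _
  have hcard := cit_card_D T hnc hnn hC hu huH
  rw [hc1, hc2, hc3, Set.ncard_sdiff_singleton_of_mem (one_mem (T : Subgroup G)), ← hT, ← hcard, hD]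
    at hcount
  set W : Set G := {i : G | orderOf i = 2 ∧
      i • ((1 : G) : G ⧸ Subgroup.normalizer ((T : Subgroup G) : Set G)) = (u : G ⧸ _)} with hW
  have hsub : (fun i => u⁻¹ * i) '' W ⊆ ((citD T u : Subgroup G) : Set G) := by
    rintro _ ⟨i, ⟨hi2, hi⟩, rfl⟩
    rw [smul_mk_eq_iff] at hi
    rw [mul_one] at hi
    refine ⟨hi, (mem_conj_iff _ u _).2 ?_⟩
    have hii : i⁻¹ = i := inv_inv_eq (inv_iff.1 hi2).2
    have : u⁻¹ * (u⁻¹ * i) * u = (u⁻¹ * i)⁻¹ := by
      rw [mul_inv_rev, inv_inv, hii, hui, ← mul_assoc, (inv_iff.1 hu).2, one_mul]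
    rw [this]
    exact inv_mem hi
  have himg : ((fun i => u⁻¹ * i) '' W).ncard = W.ncard :=
    Set.ncard_image_of_injective _ (mul_right_injective u⁻¹)
  have heq := Set.eq_of_subset_of_ncard_le hsub (by rw [himg, hcount]) (Set.toFinite _)
  have hd' : d ∈ (fun i => u⁻¹ * i) '' W := by rw [heq]; exact hd
  obtain ⟨i, ⟨hi2, -⟩, rfl⟩ := hd'
  have hii : i⁻¹ = i := inv_inv_eq (inv_iff.1 hi2).2
  rw [mul_inv_rev, inv_inv, hii, hui, ← mul_assoc, (inv_iff.1 hu).2, one_mul]

theorem cit_D_comm {d e : G} (hd : d ∈ citD T u) (he : e ∈ citD T u) : d * e = e * d := by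
  have h1 := cit_D_inverted T hnc hnn hC hu huH hd
  have h2 := cit_D_inverted T hnc hnn hC hu huH he
  have h3 := cit_D_inverted T hnc hnn hC hu huH (mul_mem hd he)
  have h4 : u * (d * e) * u⁻¹ = (u * d * u⁻¹) * (u * e * u⁻¹) := by group
  rw [h4, h1, h2, mul_inv_rev] at h3
  have h5 : e * d = d * e := by
    have := congrArg (fun x => x⁻¹) h3
    simpa using this
  exact h5.symm

theorem cit_H_eq {h : G} (hh : h ∈ Subgroup.normalizer ((T : Subgroup G) : Set G)) :
    ∃ d ∈ citD T u, ∃ t ∈ (T : Subgroup G), h = d * t := by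
  obtain ⟨s, hs, hs1⟩ := cit_exists_ne_one T hnc hC
  have hs' : h * s * h⁻¹ ∈ (T : Subgroup G) := (Subgroup.mem_normalizer_iff.1 hh s).1 hs
  have hs1' : h * s * h⁻¹ ≠ 1 := by
    intro h'
    apply hs1
    have : s = h⁻¹ * (h * s * h⁻¹) * h := by group
    rw [this, h']; group
  obtain ⟨d, hd, hdt⟩ := cit_D_trans T hnc hnn hC hu huH hs hs1 hs' hs1'
  refine ⟨d, hd, d⁻¹ * h, ?_, by group⟩
  apply cit_centralizer T hnc hC hs hs1
  calc d⁻¹ * h * s = d⁻¹ * (h * s * h⁻¹) * h := by group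
    _ = d⁻¹ * (d * s * d⁻¹) * h := by rw [hdt]
    _ = s * (d⁻¹ * h) := by group

theorem cit_complement :
    Subgroup.IsComplement'
      ((citD T u).subgroupOf (Subgroup.normalizer ((T : Subgroup G) : Set G)))
      ((T : Subgroup G).subgroupOf (Subgroup.normalizer ((T : Subgroup G) : Set G))) := by
  apply Subgroup.isComplement'_of_disjoint_and_mul_eq_univ
  · rw [Subgroup.disjoint_def]
    intro x hx1 hx2
    rw [Subgroup.mem_subgroupOf] at hx1 hx2
    apply Subtype.ext
    exact cit_D_inf_T T hnc hnn hC huH hx1 hx2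
  · rw [Set.eq_univ_iff_forall]
    intro x
    obtain ⟨d, hd, t, ht, hx⟩ := cit_H_eq T hnc hnn hC hu huH x.2
    rw [Set.mem_mul]
    refine ⟨⟨d, hd.1⟩, ?_, ⟨t, Subgroup.le_normalizer ht⟩, ?_, ?_⟩
    · exact Subgroup.mem_subgroupOf.2 hd
    · exact Subgroup.mem_subgroupOf.2 ht
    · apply Subtype.ext
      simpa using hx.symm

theorem cit_card_H : Nat.card (Subgroup.normalizer ((T : Subgroup G) : Set G))
    = Nat.card (T : Subgroup G) * (Nat.card (T : Subgroup G) - 1) := by
  have h := (cit_complement T hnc hnn hC hu huH).card_mul_card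
  have h1 : Nat.card ((citD T u).subgroupOf (Subgroup.normalizer ((T : Subgroup G) : Set G)))
      = Nat.card (citD T u) :=
    Nat.card_congr (Subgroup.subgroupOfEquivOfLe inf_le_left).toEquiv
  have h2 : Nat.card ((T : Subgroup G).subgroupOf (Subgroup.normalizer ((T : Subgroup G) : Set G)))
      = Nat.card (T : Subgroup G) :=
    Nat.card_congr (Subgroup.subgroupOfEquivOfLe Subgroup.le_normalizer).toEquiv
  rw [h1, h2, cit_card_D T hnc hnn hC hu huH] at h
  rw [← h, mul_comm]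

end D

end Cfsg.Agent.Lib.Helper28
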