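import Mathlib
import Cfsg.Prelude.Def_Involutions
import Cfsg.Agent.Lib.Helper28.SE
import Cfsg.Agent.Lib.Helper28.SE2
import Cfsg.Agent.Lib.Helper28.CIT

set_option autoImplicit false

namespace Cfsg.Agent.Lib.Helper28

variable {G : Type*} [Group G] [Finite G] (T : Sylow 2 G) (hnc : ¬ IsCyclic (T : Subgroup G))
  (hnn : ¬ (T : Subgroup G).Normal) (hC : CInv G)

include hnc hnn hC

theorem cit_inv_coset {g : G} (hg : g ∉ Subgroup.normalizer ((T : Subgroup G) : Set G)) :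
    ∃ w, orderOf w = 2 ∧ w ∉ Subgroup.normalizer ((T : Subgroup G) : Set G) ∧
      g⁻¹ * w ∈ Subgroup.normalizer ((T : Subgroup G) : Set G) := by
  obtain ⟨z, hzT, hz, -⟩ := cit_exists_central T hnc hC
  obtain ⟨w, hw2, -, hw⟩ := se_stepA (cit_se T hnc hnn hC) hz (Subgroup.le_normalizer hzT) hz
    (Subgroup.le_normalizer hzT) hg
  refine ⟨w, hw2, ?_, hw⟩
  intro hwH
  apply hg
  have : g = w * (g⁻¹ * w)⁻¹ := by group
  rw [this]
  exact mul_mem hwH (inv_mem hw)

theorem cit_D_no_inv {u : G} (huH : u ∉ Subgroup.normalizer ((T : Subgroup G) : Set G))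
    {d : G} (hd : d ∈ citD T u) (hdd : d * d = 1) : d = 1 := by
  by_contra h1
  have hdo : orderOf d = 2 := inv_iff.2 ⟨h1, hdd⟩
  exact huH (se_mem_of_conj_mem (cit_se T hnc hnn hC) hdo hd.1 ((mem_conj_iff _ u d).1 hd.2))

theorem cit_D_ne {u : G} (hu : orderOf u = 2)
    (huH : u ∉ Subgroup.normalizer ((T : Subgroup G) : Set G)) : ∃ d ∈ citD T u, d ≠ 1 := by
  have h1 := cit_card_D T hnc hnn hC hu huH
  have h2 := cit_card T hnc
  have h3 : citD T u ≠ ⊥ := by
    intro h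
    rw [Subgroup.eq_bot_iff_card] at h
    omega
  obtain ⟨d, hd⟩ := Subgroup.ne_bot_iff_exists_ne_one.1 h3
  exact ⟨d.1, d.2, fun h => hd (Subtype.ext h)⟩

theorem cit_NH_D {u : G} (hu : orderOf u = 2)
    (huH : u ∉ Subgroup.normalizer ((T : Subgroup G) : Set G)) {h : G}
    (hh : h ∈ Subgroup.normalizer ((T : Subgroup G) : Set G))
    (hn : ∀ e ∈ citD T u, h * e * h⁻¹ ∈ citD T u) : h ∈ citD T u := by
  obtain ⟨d, hd, t, ht, rfl⟩ := cit_H_eq T hnc hnn hC hu huH hh
  by_cases ht1 : t = 1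
  · rw [ht1, mul_one]; exact hd
  · exfalso
    obtain ⟨e, he, he1⟩ := cit_D_ne T hnc hnn hC hu huH
    have hte : t * e * t⁻¹ ∈ citD T u := by
      have := hn e he
      have h2 : t * e * t⁻¹ = d⁻¹ * (d * t * e * (d * t)⁻¹) * d := by group
      rw [h2]
      exact mul_mem (mul_mem (inv_mem hd) this) hd
    have hc1 : t * e * t⁻¹ * e⁻¹ ∈ citD T u := mul_mem hte (inv_mem he)
    have hc2 : t * e * t⁻¹ * e⁻¹ ∈ (T : Subgroup G) := by
      have : e * t⁻¹ * e⁻¹ ∈ (T : Subgroup G) :=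
        (Subgroup.mem_normalizer_iff.1 he.1 t⁻¹).1 (inv_mem ht)
      have h2 : t * e * t⁻¹ * e⁻¹ = t * (e * t⁻¹ * e⁻¹) := by group
      rw [h2]; exact mul_mem ht this
    have hc := cit_D_inf_T T hnc hnn hC huH hc1 hc2
    have hcomm : e * t = t * e := by
      have : t * e = (t * e * t⁻¹ * e⁻¹) * e * t := by group
      rw [this, hc, one_mul]
    exact he1 (cit_D_inf_T T hnc hnn hC huH he (cit_centralizer T hnc hC ht ht1 hcomm))

/-- If `D_u` fixes the coset of an involution `w ∉ H`, then `D_u = D_w`. -/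
theorem cit_D_eq {u w : G} (hu : orderOf u = 2)
    (huH : u ∉ Subgroup.normalizer ((T : Subgroup G) : Set G)) (hw : orderOf w = 2)
    (hwH : w ∉ Subgroup.normalizer ((T : Subgroup G) : Set G))
    (hfix : ∀ d ∈ citD T u, w⁻¹ * d * w ∈ Subgroup.normalizer ((T : Subgroup G) : Set G)) :
    citD T u = citD T w := by
  apply Subgroup.eq_of_le_of_card_ge
  · intro d hd
    exact ⟨hd.1, (mem_conj_iff _ w d).2 (hfix d hd)⟩
  · rw [cit_card_D T hnc hnn hC hu huH, cit_card_D T hnc hnn hC hw hwH]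

/-- The fixed cosets of `D_u`. -/
theorem cit_fix {u g : G} (hu : orderOf u = 2)
    (huH : u ∉ Subgroup.normalizer ((T : Subgroup G) : Set G))
    (hg : g ∉ Subgroup.normalizer ((T : Subgroup G) : Set G))
    (hfix : ∀ d ∈ citD T u, g⁻¹ * d * g ∈ Subgroup.normalizer ((T : Subgroup G) : Set G)) :
    u⁻¹ * g ∈ Subgroup.normalizer ((T : Subgroup G) : Set G) := by
  by_contra hug
  have huu := (inv_iff.1 hu).2
  have hui : u⁻¹ = u := inv_inv_eq huu
  obtain ⟨w, hw2, hwH, hgw⟩ := cit_inv_coset T hnc hnn hC hg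
  have hww := (inv_iff.1 hw2).2
  have hwi : w⁻¹ = w := inv_inv_eq hww
  have hfw : ∀ d ∈ citD T u, w⁻¹ * d * w ∈ Subgroup.normalizer ((T : Subgroup G) : Set G) := by
    intro d hd
    have h2 : w⁻¹ * d * w = (g⁻¹ * w)⁻¹ * (g⁻¹ * d * g) * (g⁻¹ * w) := by group
    rw [h2]
    exact mul_mem (mul_mem (inv_mem hgw) (hfix d hd)) hgw
  have hDw := cit_D_eq T hnc hnn hC hu huH hw2 hwH hfw
  have huw : u * w ∉ Subgroup.normalizer ((T : Subgroup G) : Set G) := by
    intro h
    apply hug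
    have h2 : u⁻¹ * g = (u * w) * (g⁻¹ * w)⁻¹ := by rw [hui]; group
    rw [h2]
    exact mul_mem h (inv_mem hgw)
  obtain ⟨v, hv2, hvH, huwv⟩ := cit_inv_coset T hnc hnn hC huw
  have hinvu : ∀ d ∈ citD T u, u * d * u⁻¹ = d⁻¹ :=
    fun d hd => cit_D_inverted T hnc hnn hC hu huH hd
  have hinvw : ∀ d ∈ citD T u, w * d * w⁻¹ = d⁻¹ :=
    fun d hd => cit_D_inverted T hnc hnn hC hw2 hwH (hDw ▸ hd)
  have hfv : ∀ d ∈ citD T u, v⁻¹ * d * v ∈ Subgroup.normalizer ((T : Subgroup G) : Set G) := by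
    intro d hd
    have h2 : v⁻¹ * d * v = ((u * w)⁻¹ * v)⁻¹ * (w⁻¹ * (u * d * u⁻¹) * w) * ((u * w)⁻¹ * v) := by
      rw [hui]
      have : ((u * w)⁻¹ * v)⁻¹ * (w⁻¹ * (u * d * u) * w) * ((u * w)⁻¹ * v)
          = v⁻¹ * (u * (w * w⁻¹) * (u * d * u) * (w * w⁻¹) * u⁻¹) * v := by group
      rw [this, mul_inv_cancel, hui]
      simp only [mul_one, mul_assoc]
      rw [← mul_assoc u u, huu, one_mul, ← mul_assoc u u, huu, one_mul]
    rw [h2, hinvu d hd]
    exact mul_mem (mul_mem (inv_mem huwv) (hfw _ (inv_mem hd))) huwv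
  have hDv := cit_D_eq T hnc hnn hC hu huH hv2 hvH hfv
  have hinvv : ∀ d ∈ citD T u, v * d * v⁻¹ = d⁻¹ :=
    fun d hd => cit_D_inverted T hnc hnn hC hv2 hvH (hDv ▸ hd)
  have hg₀H : w * u * v ∈ Subgroup.normalizer ((T : Subgroup G) : Set G) := by
    have h2 : w * u * v = (u * w)⁻¹ * v := by
      rw [mul_inv_rev, hui, hwi]
    rw [h2]; exact huwv
  have hg₀inv : ∀ d ∈ citD T u, (w * u * v) * d * (w * u * v)⁻¹ = d⁻¹ := by
    intro d hd
    have h2 : (w * u * v) * d * (w * u * v)⁻¹ = w * (u * (v * d * v⁻¹) * u⁻¹) * w⁻¹ := by group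
    rw [h2, hinvv d hd, hinvu _ (inv_mem hd), inv_inv, hinvw d hd]
  have hg₀D : w * u * v ∈ citD T u := by
    apply cit_NH_D T hnc hnn hC hu huH hg₀H
    intro e he
    rw [hg₀inv e he]; exact inv_mem he
  obtain ⟨e, he, he1⟩ := cit_D_ne T hnc hnn hC hu huH
  apply he1
  apply cit_D_no_inv T hnc hnn hC huH he
  have h3 := hg₀inv e he
  have h4 : (w * u * v) * e * (w * u * v)⁻¹ = e := by
    rw [cit_D_comm T hnc hnn hC hu huH hg₀D he]; group
  rw [h4] at h3
  calc e * e = e * e⁻¹ := by rw [← h3]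
    _ = 1 := mul_inv_cancel e

/-- S1228, second part. -/
theorem cit_fix_iff {u : G} (hu : orderOf u = 2)
    (huH : u ∉ Subgroup.normalizer ((T : Subgroup G) : Set G)) (g : G) :
    (∀ d ∈ citD T u, d • (QuotientGroup.mk g : G ⧸ Subgroup.normalizer ((T : Subgroup G) : Set G))
        = QuotientGroup.mk g) ↔
      (QuotientGroup.mk g : G ⧸ Subgroup.normalizer ((T : Subgroup G) : Set G)) = QuotientGroup.mk 1 ∨
      (QuotientGroup.mk g : G ⧸ Subgroup.normalizer ((T : Subgroup G) : Set G)) = QuotientGroup.mk u := by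
  have hui : u⁻¹ = u := inv_inv_eq (inv_iff.1 hu).2
  constructor
  · intro h
    by_cases hg : g ∈ Subgroup.normalizer ((T : Subgroup G) : Set G)
    · left
      rw [QuotientGroup.eq]; simpa using hg
    · right
      rw [eq_comm, QuotientGroup.eq]
      apply cit_fix T hnc hnn hC hu huH hg
      intro d hd
      exact (smul_mk_eq_iff d g g).1 (h d hd)
  · rintro (h | h) d hd
    · rw [h, smul_mk_eq_iff]; simpa using hd.1
    · rw [h, smul_mk_eq_iff]; exact (mem_conj_iff _ u d).1 hd.2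

/-- S1228, first part. -/
theorem cit_normalizer_D {u : G} (hu : orderOf u = 2)
    (huH : u ∉ Subgroup.normalizer ((T : Subgroup G) : Set G)) :
    Subgroup.normalizer ((citD T u : Subgroup G) : Set G) = citD T u ⊔ Subgroup.zpowers u := by
  have huu := (inv_iff.1 hu).2
  have hui : u⁻¹ = u := inv_inv_eq huu
  have hinvu : ∀ d ∈ citD T u, u * d * u⁻¹ = d⁻¹ :=
    fun d hd => cit_D_inverted T hnc hnn hC hu huH hd
  apply le_antisymm
  · intro g hg
    rw [Subgroup.mem_normalizer_iff] at hg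
    have hgD : ∀ d ∈ citD T u, g⁻¹ * d * g ∈ citD T u := by
      intro d hd
      apply (hg _).2
      have : g * (g⁻¹ * d * g) * g⁻¹ = d := by group
      rw [this]; exact hd
    by_cases hgH : g ∈ Subgroup.normalizer ((T : Subgroup G) : Set G)
    · exact Subgroup.mem_sup_left (cit_NH_D T hnc hnn hC hu huH hgH fun e he => (hg e).1 he)
    · have h1 := cit_fix T hnc hnn hC hu huH hgH (fun d hd => (hgD d hd).1)
      have h2 : u⁻¹ * g ∈ citD T u := by
        apply cit_NH_D T hnc hnn hC hu huH h1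
        intro e he
        have h3 : u⁻¹ * g * e * (u⁻¹ * g)⁻¹ = u⁻¹ * (g * e * g⁻¹) * u := by group
        have h4 : u⁻¹ * (g * e * g⁻¹) * u = u * (g * e * g⁻¹) * u⁻¹ := by rw [hui]
        rw [h3, h4, hinvu _ ((hg e).1 he)]
        exact inv_mem ((hg e).1 he)
      have h3 : g = u * (u⁻¹ * g) := by group
      rw [h3]
      exact mul_mem (Subgroup.mem_sup_right (Subgroup.mem_zpowers u)) (Subgroup.mem_sup_left h2)
  · apply sup_le Subgroup.le_normalizer
    rw [Subgroup.zpowers_le, Subgroup.mem_normalizer_iff]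
    intro d
    constructor
    · intro hd
      rw [hinvu d hd]; exact inv_mem hd
    · intro hd
      have h1 := hinvu _ hd
      have h2 : u * (u * d * u⁻¹) * u⁻¹ = d := by
        rw [hui]
        calc u * (u * d * u) * u = (u * u) * d * (u * u) := by simp only [mul_assoc]
          _ = d := by rw [huu, one_mul, mul_one]
      rw [h2] at h1
      rw [h1]; exact inv_mem hd

end Cfsg.Agent.Lib.Helper28
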