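import Mathlib
import Cfsg.Prelude.Def_Involutions
import Cfsg.Agent.Lib.Helper28.SE
import Cfsg.Agent.Lib.Helper28.SE2
import Cfsg.Agent.Lib.Helper28.CIT
import Cfsg.Agent.Lib.Helper28.CIT2

set_option autoImplicit false

namespace Cfsg.Agent.Lib.Helper28

variable {G : Type*} [Group G] [Finite G] (T : Sylow 2 G) (hnc : ¬ IsCyclic (T : Subgroup G))
  (hnn : ¬ (T : Subgroup G).Normal) (hC : CInv G)

include hnc hnn hC

theorem cit_T_inv {a : G} (ha : a ∈ (T : Subgroup G)) : a⁻¹ = a :=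
  inv_inv_eq (cit_sq T hnc hC ha)

/-- `T` is transitive on the cosets other than `H`. -/
theorem cit_T_trans {u g : G} (hu : orderOf u = 2)
    (huH : u ∉ Subgroup.normalizer ((T : Subgroup G) : Set G))
    (hg : g ∉ Subgroup.normalizer ((T : Subgroup G) : Set G)) :
    ∃ t ∈ (T : Subgroup G), u⁻¹ * t⁻¹ * g ∈ Subgroup.normalizer ((T : Subgroup G) : Set G) := by
  obtain ⟨w, hw2, hwH, hgw⟩ := cit_inv_coset T hnc hnn hC hg
  obtain ⟨d', hd', hd'1⟩ := cit_D_ne T hnc hnn hC hw2 hwH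
  obtain ⟨d, hd, t₀, ht₀, hd'eq⟩ := cit_H_eq T hnc hnn hC hu huH hd'.1
  have hd1 : d ≠ 1 := by
    rintro rfl
    rw [one_mul] at hd'eq
    exact hd'1 (cit_D_inf_T T hnc hnn hC hwH hd' (hd'eq ▸ ht₀))
  have hdN : ∀ a ∈ (T : Subgroup G), d⁻¹ * a * d ∈ (T : Subgroup G) := by
    intro a ha
    have := (Subgroup.mem_normalizer_iff.1 (inv_mem hd.1) a).1 ha
    simpa using this
  -- the map t ↦ d⁻¹ t d t is injective on T
  have hinj : Function.Injective (fun a : (T : Subgroup G) =>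
      (⟨d⁻¹ * a.1 * d * a.1, mul_mem (hdN a.1 a.2) a.2⟩ : (T : Subgroup G))) := by
    intro a b hab
    have hab' : d⁻¹ * a.1 * d * a.1 = d⁻¹ * b.1 * d * b.1 := congrArg Subtype.val hab
    have hai := cit_T_inv T hnc hnn hC a.2
    have hbi := cit_T_inv T hnc hnn hC b.2
    have hcomm : (b.1 * a.1) * d = d * (b.1 * a.1) := by
      have h1 : a.1 * d * a.1 = b.1 * d * b.1 := by
        have : d * (d⁻¹ * a.1 * d * a.1) = d * (d⁻¹ * b.1 * d * b.1) := by rw [hab']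
        simpa [mul_assoc] using this
      calc (b.1 * a.1) * d = b.1 * (a.1 * d * a.1) * a.1⁻¹ := by group
        _ = b.1 * (b.1 * d * b.1) * a.1⁻¹ := by rw [h1]
        _ = (b.1 * b.1) * d * (b.1 * a.1⁻¹) := by group
        _ = d * (b.1 * a.1) := by rw [cit_sq T hnc hC b.2, one_mul, hai]
    have hba : b.1 * a.1 = 1 := by
      by_contra hne
      have hdT : d ∈ (T : Subgroup G) :=
        cit_centralizer T hnc hC (mul_mem b.2 a.2) hne hcomm.symm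
      exact hd1 (cit_D_inf_T T hnc hnn hC huH hd hdT)
    apply Subtype.ext
    calc a.1 = b.1⁻¹ * (b.1 * a.1) := by group
      _ = b.1 := by rw [hba, mul_one, hbi]
  obtain ⟨t₁, ht₁⟩ := (Finite.injective_iff_surjective.1 hinj) ⟨t₀, ht₀⟩
  have ht₁' : d⁻¹ * t₁.1 * d * t₁.1 = t₀ := congrArg Subtype.val ht₁
  have ht₁i := cit_T_inv T hnc hnn hC t₁.2
  have hd'c : d' = t₁.1 * d * t₁.1⁻¹ := by
    rw [hd'eq, ← ht₁', ht₁i]; group
  -- conjugates of D_u by t₁ lie in D_w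
  have hconj : ∀ e ∈ citD T u, t₁.1 * e * t₁.1⁻¹ ∈ citD T w := by
    intro e he
    have hxH : t₁.1 * e * t₁.1⁻¹ ∈ Subgroup.normalizer ((T : Subgroup G) : Set G) :=
      mul_mem (mul_mem (Subgroup.le_normalizer t₁.2) he.1) (inv_mem (Subgroup.le_normalizer t₁.2))
    obtain ⟨e', he', t, ht, hx⟩ := cit_H_eq T hnc hnn hC hw2 hwH hxH
    have hxd : (t₁.1 * e * t₁.1⁻¹) * d' = d' * (t₁.1 * e * t₁.1⁻¹) := by
      rw [hd'c]
      have := cit_D_comm T hnc hnn hC hu huH he hd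
      calc t₁.1 * e * t₁.1⁻¹ * (t₁.1 * d * t₁.1⁻¹) = t₁.1 * (e * d) * t₁.1⁻¹ := by group
        _ = t₁.1 * (d * e) * t₁.1⁻¹ := by rw [this]
        _ = t₁.1 * d * t₁.1⁻¹ * (t₁.1 * e * t₁.1⁻¹) := by group
    have he'd : e' * d' = d' * e' := cit_D_comm T hnc hnn hC hw2 hwH he' hd'
    have htd : d' * t = t * d' := by
      have h1 : t = e'⁻¹ * (t₁.1 * e * t₁.1⁻¹) := by rw [hx]; group
      have h2 : e'⁻¹ * d' = d' * e'⁻¹ := by
        calc e'⁻¹ * d' = e'⁻¹ * (d' * e') * e'⁻¹ := by group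
          _ = e'⁻¹ * (e' * d') * e'⁻¹ := by rw [he'd]
          _ = d' * e'⁻¹ := by group
      rw [h1]
      calc d' * (e'⁻¹ * (t₁.1 * e * t₁.1⁻¹)) = (d' * e'⁻¹) * (t₁.1 * e * t₁.1⁻¹) := by group
        _ = (e'⁻¹ * d') * (t₁.1 * e * t₁.1⁻¹) := by rw [h2]
        _ = e'⁻¹ * (d' * (t₁.1 * e * t₁.1⁻¹)) := by group
        _ = e'⁻¹ * ((t₁.1 * e * t₁.1⁻¹) * d') := by rw [hxd]
        _ = e'⁻¹ * (t₁.1 * e * t₁.1⁻¹) * d' := by group
    have ht1 : t = 1 := by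
      by_contra hne
      exact hd'1 (cit_D_inf_T T hnc hnn hC hwH hd' (cit_centralizer T hnc hC ht hne htd))
    rw [hx, ht1, mul_one]; exact he'
  have hg'H : t₁.1⁻¹ * w ∉ Subgroup.normalizer ((T : Subgroup G) : Set G) := by
    intro h
    apply hwH
    have : w = t₁.1 * (t₁.1⁻¹ * w) := by group
    rw [this]
    exact mul_mem (Subgroup.le_normalizer t₁.2) h
  have hfix : ∀ e ∈ citD T u, (t₁.1⁻¹ * w)⁻¹ * e * (t₁.1⁻¹ * w)
      ∈ Subgroup.normalizer ((T : Subgroup G) : Set G) := by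
    intro e he
    have h1 : (t₁.1⁻¹ * w)⁻¹ * e * (t₁.1⁻¹ * w) = w⁻¹ * (t₁.1 * e * t₁.1⁻¹) * w := by group
    rw [h1]
    exact (mem_conj_iff _ w _).1 (hconj e he).2
  have hfin := cit_fix T hnc hnn hC hu huH hg'H hfix
  refine ⟨t₁.1, t₁.2, ?_⟩
  have h2 : u⁻¹ * t₁.1⁻¹ * g = (u⁻¹ * (t₁.1⁻¹ * w)) * (g⁻¹ * w)⁻¹ := by group
  rw [h2]
  exact mul_mem hfin (inv_mem hgw)

theorem cit_T_trans' {u : G} (hu : orderOf u = 2)
    (huH : u ∉ Subgroup.normalizer ((T : Subgroup G) : Set G))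
    (x : G ⧸ Subgroup.normalizer ((T : Subgroup G) : Set G)) (hx : x ≠ QuotientGroup.mk 1) :
    ∃ t ∈ (T : Subgroup G), t • (QuotientGroup.mk u : G ⧸ _) = x := by
  obtain ⟨g, rfl⟩ := QuotientGroup.mk_surjective x
  have hg : g ∉ Subgroup.normalizer ((T : Subgroup G) : Set G) := by
    intro h
    apply hx
    rw [QuotientGroup.eq]; simpa using h
  obtain ⟨t, ht, h⟩ := cit_T_trans T hnc hnn hC hu huH hg
  refine ⟨t, ht, ?_⟩
  rw [smul_mk_eq_iff]
  have : g⁻¹ * t * u = (u⁻¹ * t⁻¹ * g)⁻¹ := by group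
  rw [this]; exact inv_mem h

/-- S1229, third part. -/
theorem cit_T_regular (x y : G ⧸ Subgroup.normalizer ((T : Subgroup G) : Set G))
    (hx : x ≠ QuotientGroup.mk 1) (hy : y ≠ QuotientGroup.mk 1) :
    ∃! t : G, t ∈ T ∧ t • x = y := by
  have hse := cit_se T hnc hnn hC
  obtain ⟨u, hu, huH⟩ := se_exists_inv_out hse
  obtain ⟨tx, htx, hxu⟩ := cit_T_trans' T hnc hnn hC hu huH x hx
  obtain ⟨ty, hty, hyu⟩ := cit_T_trans' T hnc hnn hC hu huH y hy
  refine ⟨ty * tx⁻¹, ⟨mul_mem hty (inv_mem htx), ?_⟩, ?_⟩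
  · rw [← hxu, ← hyu, mul_smul, inv_smul_smul]
  · rintro t ⟨ht, htxy⟩
    have ht' : t ∈ (T : Subgroup G) := ht
    obtain ⟨a, rfl⟩ := QuotientGroup.mk_surjective x
    have ha : a ∉ Subgroup.normalizer ((T : Subgroup G) : Set G) := by
      intro h
      apply hx
      rw [QuotientGroup.eq]; simpa using h
    have hfix : ((ty * tx⁻¹)⁻¹ * t) •
        (QuotientGroup.mk a : G ⧸ Subgroup.normalizer ((T : Subgroup G) : Set G))
        = QuotientGroup.mk a := by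
      rw [mul_smul, htxy, ← hyu, ← hxu, mul_inv_rev, inv_inv, mul_smul, inv_smul_smul]
    rw [smul_mk_eq_iff] at hfix
    have hmem : (ty * tx⁻¹)⁻¹ * t ∈ (T : Subgroup G) :=
      mul_mem (inv_mem (mul_mem hty (inv_mem htx))) ht'
    have h1 : (ty * tx⁻¹)⁻¹ * t = 1 := by
      by_contra hne
      exact ha (se_mem_of_conj_mem hse (cit_order T hnc hC hmem hne) (Subgroup.le_normalizer hmem)
        hfix)
    calc t = (ty * tx⁻¹) * ((ty * tx⁻¹)⁻¹ * t) := by group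
      _ = ty * tx⁻¹ := by rw [h1, mul_one]

/-- an element of `H` fixing two further distinct cosets is trivial. -/
theorem cit_three_fix' {g b c : G} (hg : g ∈ Subgroup.normalizer ((T : Subgroup G) : Set G))
    (hb : b ∉ Subgroup.normalizer ((T : Subgroup G) : Set G))
    (hc : c ∉ Subgroup.normalizer ((T : Subgroup G) : Set G))
    (hbc : (QuotientGroup.mk b : G ⧸ Subgroup.normalizer ((T : Subgroup G) : Set G))
      ≠ QuotientGroup.mk c)
    (hgb : g • (QuotientGroup.mk b : G ⧸ Subgroup.normalizer ((T : Subgroup G) : Set G))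
      = QuotientGroup.mk b)
    (hgc : g • (QuotientGroup.mk c : G ⧸ Subgroup.normalizer ((T : Subgroup G) : Set G))
      = QuotientGroup.mk c) : g = 1 := by
  obtain ⟨w, hw2, hwH, hbw⟩ := cit_inv_coset T hnc hnn hC hb
  have hwb : (QuotientGroup.mk w : G ⧸ Subgroup.normalizer ((T : Subgroup G) : Set G))
      = QuotientGroup.mk b := by
    rw [eq_comm, QuotientGroup.eq]; exact hbw
  have hb1 : (QuotientGroup.mk b : G ⧸ Subgroup.normalizer ((T : Subgroup G) : Set G))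
      ≠ QuotientGroup.mk 1 := by
    intro h
    rw [QuotientGroup.eq] at h
    exact hb (by simpa using h)
  have hc1 : (QuotientGroup.mk c : G ⧸ Subgroup.normalizer ((T : Subgroup G) : Set G))
      ≠ QuotientGroup.mk 1 := by
    intro h
    rw [QuotientGroup.eq] at h
    exact hc (by simpa using h)
  obtain ⟨t, ⟨ht, htbc⟩, -⟩ := cit_T_regular T hnc hnn hC _ _ hb1 hc1
  have ht' : t ∈ (T : Subgroup G) := ht
  have ht1 : t ≠ 1 := by
    rintro rfl
    rw [one_smul] at htbc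
    exact hbc htbc
  have hDw : ∀ x ∈ Subgroup.normalizer ((T : Subgroup G) : Set G),
      x • (QuotientGroup.mk b : G ⧸ Subgroup.normalizer ((T : Subgroup G) : Set G))
        = QuotientGroup.mk b → x ∈ citD T w := by
    intro x hx hxb
    refine ⟨hx, (mem_conj_iff _ w x).2 ?_⟩
    rw [← hwb] at hxb
    exact (smul_mk_eq_iff x w w).1 hxb
  have h1 : g ∈ citD T w := hDw g hg hgb
  have h2 : t⁻¹ * g * t ∈ citD T w := by
    apply hDw _ (mul_mem (mul_mem (inv_mem (Subgroup.le_normalizer ht')) hg)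
      (Subgroup.le_normalizer ht'))
    rw [mul_smul, mul_smul, htbc, hgc, ← htbc, inv_smul_smul]
  have h3 : g⁻¹ * (t⁻¹ * g * t) ∈ citD T w := mul_mem (inv_mem h1) h2
  have h4 : g⁻¹ * (t⁻¹ * g * t) ∈ (T : Subgroup G) := by
    have : g⁻¹ * t⁻¹ * g ∈ (T : Subgroup G) := by
      have := (Subgroup.mem_normalizer_iff.1 (inv_mem hg) t⁻¹).1 (inv_mem ht')
      simpa using this
    have h5 : g⁻¹ * (t⁻¹ * g * t) = (g⁻¹ * t⁻¹ * g) * t := by group
    rw [h5]; exact mul_mem this ht'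
  have h5 := cit_D_inf_T T hnc hnn hC hwH h3 h4
  have h6 : g * t = t * g := by
    have : g * t = t * (g * (g⁻¹ * (t⁻¹ * g * t))) := by group
    rw [this, h5, mul_one]
  exact cit_D_inf_T T hnc hnn hC hwH h1 (cit_centralizer T hnc hC ht' ht1 h6)

/-- S1229, second part. -/
theorem cit_three_fix (g : G) (x₁ x₂ x₃ : G ⧸ Subgroup.normalizer ((T : Subgroup G) : Set G))
    (h12 : x₁ ≠ x₂) (h13 : x₁ ≠ x₃) (h23 : x₂ ≠ x₃) (h1 : g • x₁ = x₁) (h2 : g • x₂ = x₂)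
    (h3 : g • x₃ = x₃) : g = 1 := by
  obtain ⟨a, rfl⟩ := QuotientGroup.mk_surjective x₁
  obtain ⟨b, rfl⟩ := QuotientGroup.mk_surjective x₂
  obtain ⟨c, rfl⟩ := QuotientGroup.mk_surjective x₃
  rw [smul_mk_eq_iff] at h1 h2 h3
  have hab : a⁻¹ * b ∉ Subgroup.normalizer ((T : Subgroup G) : Set G) :=
    fun h => h12 (QuotientGroup.eq.2 h)
  have hac : a⁻¹ * c ∉ Subgroup.normalizer ((T : Subgroup G) : Set G) :=
    fun h => h13 (QuotientGroup.eq.2 h)
  have hbc : (QuotientGroup.mk (a⁻¹ * b) : G ⧸ Subgroup.normalizer ((T : Subgroup G) : Set G))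
      ≠ QuotientGroup.mk (a⁻¹ * c) := by
    intro h
    apply h23
    rw [QuotientGroup.eq] at h ⊢
    have : (a⁻¹ * b)⁻¹ * (a⁻¹ * c) = b⁻¹ * c := by group
    rwa [this] at h
  have key : a⁻¹ * g * a = 1 := by
    apply cit_three_fix' T hnc hnn hC h1 hab hac hbc
    · rw [smul_mk_eq_iff]
      have : (a⁻¹ * b)⁻¹ * (a⁻¹ * g * a) * (a⁻¹ * b) = b⁻¹ * g * b := by group
      rw [this]; exact h2
    · rw [smul_mk_eq_iff]
      have : (a⁻¹ * c)⁻¹ * (a⁻¹ * g * a) * (a⁻¹ * c) = c⁻¹ * g * c := by group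
      rw [this]; exact h3
  calc g = a * (a⁻¹ * g * a) * a⁻¹ := by group
    _ = 1 := by rw [key]; group

theorem cit_two_trans {u : G} (hu : orderOf u = 2)
    (huH : u ∉ Subgroup.normalizer ((T : Subgroup G) : Set G))
    (x₁ x₂ : G ⧸ Subgroup.normalizer ((T : Subgroup G) : Set G)) (h12 : x₁ ≠ x₂) :
    ∃ g : G, g • x₁ = QuotientGroup.mk 1 ∧ g • x₂ = QuotientGroup.mk u := by
  obtain ⟨a, rfl⟩ := QuotientGroup.mk_surjective x₁
  have h1 : a⁻¹ • (QuotientGroup.mk a : G ⧸ Subgroup.normalizer ((T : Subgroup G) : Set G))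
      = QuotientGroup.mk 1 := by
    rw [smul_mk_eq_iff]; simp
  have h2 : a⁻¹ • x₂ ≠ QuotientGroup.mk 1 := by
    intro h
    apply h12
    rw [← h1] at h
    exact (smul_left_cancel _ h).symm
  obtain ⟨t, ht, htu⟩ := cit_T_trans' T hnc hnn hC hu huH _ h2
  refine ⟨t⁻¹ * a⁻¹, ?_, ?_⟩
  · rw [mul_smul, h1, smul_mk_eq_iff]
    simpa using Subgroup.le_normalizer (inv_mem ht)
  · rw [mul_smul, ← htu, inv_smul_smul]

theorem cit_D_trans_cosets {u : G} (hu : orderOf u = 2)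
    (huH : u ∉ Subgroup.normalizer ((T : Subgroup G) : Set G))
    (p p' : G ⧸ Subgroup.normalizer ((T : Subgroup G) : Set G))
    (hp1 : p ≠ QuotientGroup.mk 1) (hpu : p ≠ QuotientGroup.mk u)
    (hp1' : p' ≠ QuotientGroup.mk 1) (hpu' : p' ≠ QuotientGroup.mk u) :
    ∃ d ∈ citD T u, d • p = p' := by
  obtain ⟨t, ht, htp⟩ := cit_T_trans' T hnc hnn hC hu huH p hp1
  obtain ⟨t', ht', htp'⟩ := cit_T_trans' T hnc hnn hC hu huH p' hp1'
  have ht1 : t ≠ 1 := by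
    rintro rfl
    rw [one_smul] at htp
    exact hpu htp.symm
  have ht1' : t' ≠ 1 := by
    rintro rfl
    rw [one_smul] at htp'
    exact hpu' htp'.symm
  obtain ⟨d, hd, hdt⟩ := cit_D_trans T hnc hnn hC hu huH ht ht1 ht' ht1'
  refine ⟨d, hd, ?_⟩
  have hdu : d • (QuotientGroup.mk u : G ⧸ Subgroup.normalizer ((T : Subgroup G) : Set G))
      = QuotientGroup.mk u := by
    rw [smul_mk_eq_iff]; exact (mem_conj_iff _ u d).1 hd.2
  rw [← htp, ← htp', ← hdt]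
  calc d • t • (QuotientGroup.mk u : G ⧸ Subgroup.normalizer ((T : Subgroup G) : Set G))
      = (d * t * d⁻¹) • d • (QuotientGroup.mk u : G ⧸ _) := by
        rw [← mul_smul, ← mul_smul]; congr 1; group
    _ = (d * t * d⁻¹) • (QuotientGroup.mk u : G ⧸ _) := by rw [hdu]

/-- S1229, first part. -/
theorem cit_three_trans (x₁ x₂ x₃ y₁ y₂ y₃ : G ⧸ Subgroup.normalizer ((T : Subgroup G) : Set G))
    (h12 : x₁ ≠ x₂) (h13 : x₁ ≠ x₃) (h23 : x₂ ≠ x₃) (k12 : y₁ ≠ y₂) (k13 : y₁ ≠ y₃)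
    (k23 : y₂ ≠ y₃) : ∃ g : G, g • x₁ = y₁ ∧ g • x₂ = y₂ ∧ g • x₃ = y₃ := by
  have hse := cit_se T hnc hnn hC
  obtain ⟨u, hu, huH⟩ := se_exists_inv_out hse
  obtain ⟨g₁, hg₁1, hg₁2⟩ := cit_two_trans T hnc hnn hC hu huH x₁ x₂ h12
  obtain ⟨g₂, hg₂1, hg₂2⟩ := cit_two_trans T hnc hnn hC hu huH y₁ y₂ k12
  have hp1 : g₁ • x₃ ≠ QuotientGroup.mk 1 := by
    rw [← hg₁1]; exact fun h => h13 (smul_left_cancel _ h).symm
  have hpu : g₁ • x₃ ≠ QuotientGroup.mk u := by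
    rw [← hg₁2]; exact fun h => h23 (smul_left_cancel _ h).symm
  have hp1' : g₂ • y₃ ≠ QuotientGroup.mk 1 := by
    rw [← hg₂1]; exact fun h => k13 (smul_left_cancel _ h).symm
  have hpu' : g₂ • y₃ ≠ QuotientGroup.mk u := by
    rw [← hg₂2]; exact fun h => k23 (smul_left_cancel _ h).symm
  obtain ⟨d, hd, hdp⟩ := cit_D_trans_cosets T hnc hnn hC hu huH _ _ hp1 hpu hp1' hpu'
  have hd1 : d • (QuotientGroup.mk 1 : G ⧸ Subgroup.normalizer ((T : Subgroup G) : Set G))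
      = QuotientGroup.mk 1 := by
    rw [smul_mk_eq_iff]; simpa using hd.1
  have hdu : d • (QuotientGroup.mk u : G ⧸ Subgroup.normalizer ((T : Subgroup G) : Set G))
      = QuotientGroup.mk u := by
    rw [smul_mk_eq_iff]; exact (mem_conj_iff _ u d).1 hd.2
  refine ⟨g₂⁻¹ * d * g₁, ?_, ?_, ?_⟩
  · rw [mul_smul, mul_smul, hg₁1, hd1, ← hg₂1, inv_smul_smul]
  · rw [mul_smul, mul_smul, hg₁2, hdu, ← hg₂2, inv_smul_smul]
  · rw [mul_smul, mul_smul, hdp, inv_smul_smul]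

end Cfsg.Agent.Lib.Helper28
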