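import Mathlib
import Cfsg.Agent.Lib.Helper48.DCA
import Cfsg.Agent.Lib.Helper25.ChevUpAll
import Cfsg.Agent.Lib.Helper25.ChevBnB
import Cfsg.Agent.Lib.Helper25.ChevNConjAll
import Cfsg.Agent.Lib.Helper25.ChevBN
import Cfsg.Agent.Lib.Helper24.ChevBorel
import Cfsg.Agent.Lib.Helper24.GenRoot
import Cfsg.Agent.Lib.Helper24.Simple

/-!
# Project DC (helper48, S2318): piece XQINT

`X_i ∩ Q_i = 1`: conjugating by `n_i` sends an element of `X_i ∩ Q_i` into `B ∩ U^- = 1`.
-/

set_option autoImplicit false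

namespace Cfsg.Agent.Lib.Helper48.DC

open Cfsg Cfsg.Lie
open Cfsg.Agent.Lib.Helper24 Cfsg.Agent.Lib.Helper25

variable {F : Type*} [Field F] [Fintype F]

/-- XQINT -/
theorem Xg_inf_Qg (D : ChevalleyDatum)
    (hD : D ∈ [chevG2, chevB2, chevD4, chevF4, chevE6, chevE7, chevE8]) (i : ℕ) (hi : i < D.rank) :
    ∀ a ∈ Xg F D i, a ∈ Qg F D i → a = 1 := by
  intro a haX haQ
  have hD' : D ∈ chevList := hD
  have hs : D.simple i < D.nroots := simple_lt D hD' i hi
  have hpos : D.IsPosRoot (D.simple i) := (upChk_all D hD i hi).1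
  have hnegroot : D.IsNegRoot (D.neg (D.simple i)) :=
    (sign_facts D hD (D.simple i) hs).2.2.2.mp hpos
  obtain ⟨g, hg⟩ : ∃ g : GL D.Idx F, g = (a : GL D.Idx F) := ⟨_, rfl⟩
  have hgX : g ∈ D.rootSubgroup F (D.simple i) := by
    rw [hg]
    exact Subgroup.mem_subgroupOf.mp haX
  have hgQ : g ∈ Ql F D i := by
    rw [hg]
    exact Subgroup.mem_subgroupOf.mp haQ
  obtain ⟨t, hgt⟩ := mem_rootSubgroup D hD (D.simple i) hs g hgX
  -- the element `n_i`
  obtain ⟨n, hn⟩ : ∃ n : GL D.Idx F, n = nGL D hD' (D.simple i) := ⟨_, rfl⟩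
  have hnval : (n : Matrix D.Idx D.Idx F) = D.nMat F (D.simple i) 1 := by
    rw [hn]
    exact nGL_val D hD' (D.simple i)
  have hnmem : n ∈ D.rootSubgroup F (D.simple i) ⊔ D.rootSubgroup F (D.neg (D.simple i)) := by
    rw [hn]
    unfold nGL
    have h1 : xGL D hD' (D.simple i) (1 : F) ∈ D.rootSubgroup F (D.simple i) :=
      mem_rootSubgroup_of_val D _ _ 1 (xGL_val D hD' _ _)
    have h2 : xGL D hD' (D.neg (D.simple i)) (-1 : F) ∈ D.rootSubgroup F (D.neg (D.simple i)) :=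
      mem_rootSubgroup_of_val D _ _ (-1) (xGL_val D hD' _ _)
    exact Subgroup.mul_mem _ (Subgroup.mem_sup_left h1)
      (Subgroup.mul_mem _ (Subgroup.mem_sup_right h2) (Subgroup.mem_sup_left h1))
  have hnnorm := (up_normalized (F := F) D hD i hi).1 hnmem
  have hconjQ : n * g * n⁻¹ ∈ Ql F D i := (Subgroup.mem_set_normalizer_iff.mp hnnorm g).mp hgQ
  have hQU : Ql F D i ≤ D.posUnipotent F := by
    unfold ChevalleyDatum.posUnipotent
    apply Subgroup.closure_mono
    rintro x ⟨s, t', hsp, -, hx⟩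
    exact ⟨s, t', hsp, hx⟩
  have hconjB : n * g * n⁻¹ ∈ D.borelSubgroup F := by
    unfold ChevalleyDatum.borelSubgroup
    exact Subgroup.mem_sup_left (hQU hconjQ)
  -- the conjugate is a negative root element
  have hrefl : D.reflectRoot i (D.simple i) = D.neg (D.simple i) := by
    unfold ChevalleyDatum.reflectRoot
    simp
  have hc := n_simple_conj (F := F) D hD i hi (D.simple i) hs t
  rw [hrefl] at hc
  have heq : n * g = xGL D hD' (D.neg (D.simple i)) (((nEta D i (D.simple i) : ℤ) : F) * t) * n := by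
    apply Units.ext
    rw [Units.val_mul, Units.val_mul, hnval, hgt, xGL_val]
    exact hc
  have hconj : n * g * n⁻¹ =
      xGL D hD' (D.neg (D.simple i)) (((nEta D i (D.simple i) : ℤ) : F) * t) := by
    rw [heq, mul_inv_cancel_right]
  have hconjV : n * g * n⁻¹ ∈ D.negUnipotent F := by
    rw [hconj]
    unfold ChevalleyDatum.negUnipotent
    exact Subgroup.subset_closure ⟨_, _, hnegroot, xGL_val D hD' _ _⟩
  have hbot : n * g * n⁻¹ ∈ D.borelSubgroup F ⊓ D.negUnipotent F := ⟨hconjB, hconjV⟩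
  rw [borel_inf_negUnipotent D hD', Subgroup.mem_bot] at hbot
  have hg1 : g = 1 := conj_eq_one_iff.mp hbot
  apply Subtype.ext
  rw [← hg, hg1]
  rfl

end Cfsg.Agent.Lib.Helper48.DC
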