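import Mathlib
import Cfsg.Agent.Lib.Helper52.LangPlus

/-!
# S2717 piece GF-CONJ (job 1328, poster helper51)

The quotient of two involutory graph-field automorphisms of `PΩ⁺_{2m}(F)` is inner-diagonal.
-/

set_option autoImplicit false
set_option linter.unusedSectionVars false
set_option linter.unusedVariables false

namespace Cfsg.Agent.Lib.Helper28.GFCONJ

open Module QuadraticMap Matrix
open Cfsg Cfsg.Agent.Lib.Helper51 Cfsg.Agent.Lib.Helper52 Cfsg.Agent.Lib.Helper54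
open Cfsg.Agent.Lib.Helper52.OU Cfsg.Agent.Lib.Helper52.OUMain Cfsg.Agent.Lib.Helper52.LP
open Cfsg.Agent.Lib.Helper52.LPMain
open Cfsg.Agent.Lib.Helper52.LSMain (ind_congr ind_smul orderOf_conj_eq)

universe u

/-- a finite cyclic group has at most one involution -/
theorem h28_invol_unique {A : Type*} [Group A] [Finite A] [IsCyclic A] (a b : A)
    (ha : a ^ 2 = 1) (ha1 : a ≠ 1) (hb : b ^ 2 = 1) (hb1 : b ≠ 1) : a = b := by
  classical
  have := Fintype.ofFinite A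
  by_contra hab
  have h := IsCyclic.card_pow_eq_one_le (α := A) (n := 2) (by norm_num)
  have hsub : ({1, a, b} : Finset A) ⊆ Finset.univ.filter (fun x : A => x ^ 2 = 1) := by
    intro x hx
    simp only [Finset.mem_insert, Finset.mem_singleton] at hx
    rcases hx with rfl | rfl | rfl <;> simp [ha, hb]
  have hc : ({1, a, b} : Finset A).card = 3 := by
    rw [Finset.card_insert_of_notMem, Finset.card_insert_of_notMem, Finset.card_singleton]
    · simpa using hab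
    · simp only [Finset.mem_insert, Finset.mem_singleton, not_or]
      exact ⟨fun h => ha1 h.symm, fun h => hb1 h.symm⟩
  have h3 := Finset.card_le_card hsub
  omega

/-- character calculus for a predicate on a subgroup -/
theorem h28_char {Γ : Type*} [Group Γ] (S : Subgroup Γ) (P : Γ → Prop)
    (hmul : ∀ g h, g ∈ S → h ∈ S → P g → P h → P (g * h))
    (hinv : ∀ g, g ∈ S → P g → P g⁻¹)
    (hnn : ∀ g h, g ∈ S → h ∈ S → ¬ P g → ¬ P h → P (g * h)) :
    (∀ g, g ∈ S → (P g⁻¹ ↔ P g)) ∧ (∀ g h, g ∈ S → h ∈ S → (P (g * h) ↔ (P g ↔ P h))) := by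
  have h1 : ∀ g, g ∈ S → (P g⁻¹ ↔ P g) := by
    intro g hg
    constructor
    · intro h
      have h2 := hinv g⁻¹ (S.inv_mem hg) h
      rwa [inv_inv] at h2
    · exact hinv g hg
  refine ⟨h1, ?_⟩
  intro g h hg hh
  constructor
  · intro hgh
    constructor
    · intro hPg
      have h2 := hmul g⁻¹ (g * h) (S.inv_mem hg) (S.mul_mem hg hh) ((h1 g hg).mpr hPg) hgh
      rwa [inv_mul_cancel_left] at h2
    · intro hPh
      have h2 := hmul (g * h) h⁻¹ (S.mul_mem hg hh) (S.inv_mem hh) hgh ((h1 h hh).mpr hPh)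
      rwa [mul_inv_cancel_right] at h2
  · intro hiff
    by_cases hPg : P g
    · exact hmul g h hg hh hPg (hiff.mp hPg)
    · exact hnn g h hg hh hPg (fun hPh => hPg (hiff.mpr hPh))

/-- the action of a twisted matrix -/
theorem h28_map_mulVec {ι : Type} [Fintype ι] [DecidableEq ι] {F : Type*} [Field F]
    (τ : F ≃+* F) (M : Matrix ι ι F) (v : ι → F) :
    (M.map τ) *ᵥ v = fun i => τ ((M *ᵥ (fun j => τ.symm (v j))) i) := by
  funext i
  simp [Matrix.mulVec, dotProduct, map_sum, map_mul]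

/-- the square of the field part of an involution is trivial -/
theorem h28_sq_of_ind {ι : Type} [Fintype ι] [DecidableEq ι] {F : Type*} [Field F] [Fintype F]
    (q : (ι → F) → F) (Q : QuadraticForm F (ι → F)) (hq : ⇑Q = q)
    (hQ : (polarBilin Q).Nondegenerate) (hn : 7 ≤ Fintype.card ι)
    (z : MulAut (POmega F q)) (g : GL ι F) (σ : F ≃+* F) (hz : orderOf z = 2)
    (hI : Ind q z g σ) : (σ : RingAut F) ^ 2 = 1 := by
  subst hq
  have h1 := ind_pow _ hI 2
  have hz2 : z ^ 2 = 1 := by rw [← hz]; exact pow_orderOf_eq_one z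
  rw [hz2] at h1
  exact ((ind_unique Q hQ hn (ind_one _) h1).1).symm

section Plus

variable {F : Type*} [Field F]

theorem h28_nn_plus [Fintype F] {m : ℕ} (hm : 1 ≤ m) :
    ∀ g h : GL (Fin m ⊕ Fin m) F,
      g ∈ Cfsg.Geo.quadSimilarityGroup (F := F) (Cfsg.quadFormPlus m F) →
      h ∈ Cfsg.Geo.quadSimilarityGroup (F := F) (Cfsg.quadFormPlus m F) →
      ¬ PreservesSingularClasses (Cfsg.quadFormPlus m F)
        (g : Matrix (Fin m ⊕ Fin m) (Fin m ⊕ Fin m) F) →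
      ¬ PreservesSingularClasses (Cfsg.quadFormPlus m F)
        (h : Matrix (Fin m ⊕ Fin m) (Fin m ⊕ Fin m) F) →
      PreservesSingularClasses (Cfsg.quadFormPlus m F)
        ((g * h : GL (Fin m ⊕ Fin m) F) : Matrix (Fin m ⊕ Fin m) (Fin m ⊕ Fin m) F) := by
  rw [← coe_QPlus]
  exact fun g h hg hh Pg Ph => pres_of_not_not hm (QPlus m F) (isHyp_plus m) g h hg hh Pg Ph

/-- twisting a similarity of the plus form by a field automorphism gives a similarity -/
theorem h28_sim_map {m : ℕ} (τ : F ≃+* F) (g : GL (Fin m ⊕ Fin m) F)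
    (hg : g ∈ Cfsg.Geo.quadSimilarityGroup (F := F) (Cfsg.quadFormPlus m F)) :
    Matrix.GeneralLinearGroup.map (τ : F →+* F) g ∈
      Cfsg.Geo.quadSimilarityGroup (F := F) (Cfsg.quadFormPlus m F) := by
  obtain ⟨c, hc⟩ := hg
  refine ⟨Units.map ((τ : F →+* F) : F →* F) c, fun v => ?_⟩
  rw [coe_map_eq, h28_map_mulVec]
  have h1 := sigInv_plus (F := F) m τ
  have h2 := sigInv_plus (F := F) m τ.symm
  rw [← coe_QPlus] at hc ⊢
  rw [h1, hc, h2, map_mul]
  simp

/-- `b τ(b)⁻¹` preserves the classes -/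
theorem h28_pres_twist [Fintype F] {m : ℕ} (hm : 1 ≤ m) (τ : F ≃+* F)
    (b : GL (Fin m ⊕ Fin m) F)
    (hb : b ∈ Cfsg.Geo.quadSimilarityGroup (F := F) (Cfsg.quadFormPlus m F)) :
    PreservesSingularClasses (Cfsg.quadFormPlus m F)
      ((b * Matrix.GeneralLinearGroup.map (τ : F →+* F) b⁻¹ : GL (Fin m ⊕ Fin m) F) :
        Matrix (Fin m ⊕ Fin m) (Fin m ⊕ Fin m) F) := by
  have hb' := h28_sim_map τ b⁻¹ (Subgroup.inv_mem _ hb)
  have hab := Subgroup.mul_mem _ hb hb'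
  rw [← coe_QPlus] at hb hab ⊢
  have hH := isHyp_plus (F := F) m
  have hU₀ : IsLag m (QPlus m F) (stdLag m F) :=
    (maxTS_iff_lag hm (QPlus m F) hH _).mp stdLag_maxTS
  have hW : IsLag m (QPlus m F)
      (imageSubmodule (b : Matrix (Fin m ⊕ Fin m) (Fin m ⊕ Fin m) F) (stdLag m F)) :=
    IsLag.image hb hU₀
  refine semi_pres hm (QPlus m F) hH τ (sigInv_plus m τ) (stdLag m F) hU₀ (sigSub_stdLag m τ)
    _ hab _ hW ?_
  have e : imageSubmodule
      ((b * Matrix.GeneralLinearGroup.map (τ : F →+* F) b⁻¹ : GL (Fin m ⊕ Fin m) F) :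
        Matrix (Fin m ⊕ Fin m) (Fin m ⊕ Fin m) F)
      (sigSub τ (imageSubmodule (b : Matrix (Fin m ⊕ Fin m) (Fin m ⊕ Fin m) F) (stdLag m F)))
      = imageSubmodule (b : Matrix (Fin m ⊕ Fin m) (Fin m ⊕ Fin m) F) (stdLag m F) := by
    rw [sigSub_imageSubmodule, sigSub_stdLag, ← imageSubmodule_mul, Units.val_mul,
      Matrix.mul_assoc, map_inv_mul_map, Matrix.mul_one]
  rw [e, inf_idem, hW.1, Nat.sub_self]
  exact ⟨0, rfl⟩

/-- twisting by a field automorphism does not change the class character -/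
theorem h28_pres_map_iff [Fintype F] {m : ℕ} (hm : 1 ≤ m) (τ : F ≃+* F)
    (b : GL (Fin m ⊕ Fin m) F)
    (hb : b ∈ Cfsg.Geo.quadSimilarityGroup (F := F) (Cfsg.quadFormPlus m F)) :
    PreservesSingularClasses (Cfsg.quadFormPlus m F)
      ((Matrix.GeneralLinearGroup.map (τ : F →+* F) b : GL (Fin m ⊕ Fin m) F) :
        Matrix (Fin m ⊕ Fin m) (Fin m ⊕ Fin m) F) ↔
    PreservesSingularClasses (Cfsg.quadFormPlus m F)
      (b : Matrix (Fin m ⊕ Fin m) (Fin m ⊕ Fin m) F) := by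
  obtain ⟨hinv_iff, hmul_iff⟩ := h28_char
    (Cfsg.Geo.quadSimilarityGroup (F := F) (Cfsg.quadFormPlus m F))
    (fun g : GL (Fin m ⊕ Fin m) F => PreservesSingularClasses (Cfsg.quadFormPlus m F)
      (g : Matrix (Fin m ⊕ Fin m) (Fin m ⊕ Fin m) F))
    (pres_mul_plus hm) (pres_inv_plus hm) (h28_nn_plus hm)
  have hb' := h28_sim_map τ b hb
  have h1 := (hmul_iff b (Matrix.GeneralLinearGroup.map (τ : F →+* F) b⁻¹) hb
    (h28_sim_map τ b⁻¹ (Subgroup.inv_mem _ hb))).mp (h28_pres_twist hm τ b hb)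
  have h2 := hinv_iff _ hb'
  rw [← map_inv] at h2
  exact (h1.trans h2).symm

/-- a graph-field automorphism is induced by a pair `(g, σ)` with `g` a similarity interchanging
the two classes and `σ ≠ 1` -/
theorem h28_class_data [Fintype F] {m : ℕ} (hm1 : 1 ≤ m)
    (hγ : Cfsg.gammaPOmega F (Cfsg.quadFormPlus m F) = ⊤)
    (x : MulAut (POmega F (quadFormPlus m F))) (hx : IsGraphFieldAutClassPOmegaPlus m x) :
    ∃ (g : GL (Fin m ⊕ Fin m) F) (σ : F ≃+* F), Ind (quadFormPlus m F) x g σ ∧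
      g ∈ Cfsg.Geo.quadSimilarityGroup (F := F) (Cfsg.quadFormPlus m F) ∧
      ¬ PreservesSingularClasses (Cfsg.quadFormPlus m F)
        (g : Matrix (Fin m ⊕ Fin m) (Fin m ⊕ Fin m) F) ∧
      σ ≠ RingEquiv.refl F := by
  obtain ⟨α, γ, φ, σ, v, rr, hσ1, hv, hvσ, hrr, hγI, hφ, hαx⟩ := hx
  obtain ⟨h1, h2, h3, h4⟩ := refl_data hm1 σ v hv hvσ rr hrr
  have hγ' : Ind (Cfsg.quadFormPlus m F) γ rr (RingEquiv.refl F) := ⟨h2, hγI⟩
  have hx'I : Ind (Cfsg.quadFormPlus m F) (γ * φ) rr σ :=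
    ind_congr _ (ind_mul_refl _ hγ' (ind_field_plus m σ φ hφ)) (by rw [mul_one])
      (fun x => rfl)
  obtain ⟨a, τ, hα⟩ := exists_ind _ hγ α
  have ha : a ∈ Cfsg.Geo.quadSimilarityGroup (F := F) (Cfsg.quadFormPlus m F) := by
    obtain ⟨c, hc⟩ := hα.1
    refine ⟨c, fun w => ?_⟩
    have h5 := hc (fun i => τ.symm (w i))
    have e : (fun i => τ ((fun i => τ.symm (w i)) i)) = w := by
      funext i; simp
    rw [e] at h5
    rw [h5]
    have h6 := sigInv_plus (F := F) m τ.symm w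
    rw [coe_QPlus] at h6
    rw [h6]
    simp
  have hxe : x = α⁻¹ * (γ * φ) * α := by rw [← hαx]; group
  have hI := ind_mul _ (ind_mul _ (ind_inv _ hα) hx'I) hα
  rw [← hxe] at hI
  obtain ⟨hinv_iff, hmul_iff⟩ := h28_char
    (Cfsg.Geo.quadSimilarityGroup (F := F) (Cfsg.quadFormPlus m F))
    (fun g : GL (Fin m ⊕ Fin m) F => PreservesSingularClasses (Cfsg.quadFormPlus m F)
      (g : Matrix (Fin m ⊕ Fin m) (Fin m ⊕ Fin m) F))
    (pres_mul_plus hm1) (pres_inv_plus hm1) (h28_nn_plus hm1)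
  have hA := h28_sim_map τ.symm a⁻¹ (Subgroup.inv_mem _ ha)
  have hR := h28_sim_map τ.symm rr h1
  have hB := h28_sim_map (σ.trans τ.symm) a ha
  refine ⟨_, _, hI, Subgroup.mul_mem _ (Subgroup.mul_mem _ hA hR) hB, ?_, ?_⟩
  · have e1 := hmul_iff _ _ (Subgroup.mul_mem _ hA hR) hB
    have e2 := hmul_iff _ _ hA hR
    have e3 := h28_pres_map_iff hm1 τ.symm a⁻¹ (Subgroup.inv_mem _ ha)
    have e4 := hinv_iff a ha
    have e5 := h28_pres_map_iff hm1 τ.symm rr h1
    have e6 := h28_pres_map_iff hm1 (σ.trans τ.symm) a ha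
    tauto
  · intro h
    apply hσ1
    apply RingEquiv.ext
    intro w
    have h7 := congrArg (fun e : F ≃+* F => e (τ.symm w)) h
    simp only [RingEquiv.trans_apply, RingEquiv.apply_symm_apply, RingEquiv.refl_apply] at h7
    exact τ.symm.injective h7

end Plus

/-- PIECE GF-CONJ : the quotient of two involutory graph-field automorphisms is
inner-diagonal -/
theorem gf_diff_mem {F : Type u} [Field F] [Fintype F] {m : ℕ} (hm : 5 ≤ m)
    (x y : MulAut (POmega F (quadFormPlus m F)))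
    (hx : IsGraphFieldAutClassPOmegaPlus m x) (hx2 : orderOf x = 2)
    (hy : IsGraphFieldAutClassPOmegaPlus m y) (hy2 : orderOf y = 2) :
    y * x⁻¹ ∈ inndiagPOmegaPlus m F := by
  classical
  have hm1 : 1 ≤ m := by omega
  obtain ⟨p, _, n, hp, hF⟩ := FiniteField.card' F
  have : Fact p.Prime := ⟨hp⟩
  obtain ⟨Q', hq', hQ', hn', h8'⟩ := Cfsg.Agent.Lib.Helper51.OAF.plus_data (F := F) hm
  have hγQ : Cfsg.gammaPOmega F ⇑Q' = ⊤ :=
    Cfsg.Agent.Lib.Helper52.OA.gamma_eq_top Q' hQ' hn' h8'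
  have hγ : Cfsg.gammaPOmega F (Cfsg.quadFormPlus m F) = ⊤ := by
    rw [← hq']; exact hγQ
  obtain ⟨ρ, -, -, hcardA, hcyc⟩ := core_data hF Q' hQ' hn' hγQ
  have hfin : Finite (RingAut F) :=
    Nat.finite_of_card_ne_zero (by rw [hcardA]; exact n.pos.ne')
  obtain ⟨gx, σx, hIx, hgx, hPx, hσx⟩ := h28_class_data hm1 hγ x hx
  obtain ⟨gy, σy, hIy, hgy, hPy, hσy⟩ := h28_class_data hm1 hγ y hy
  have hx1 : (σx : RingAut F) ^ 2 = 1 := h28_sq_of_ind _ Q' hq' hQ' hn' x gx σx hx2 hIx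
  have hy1 : (σy : RingAut F) ^ 2 = 1 := h28_sq_of_ind _ Q' hq' hQ' hn' y gy σy hy2 hIy
  have hσ : σx = σy := h28_invol_unique (A := RingAut F) σx σy hx1 hσx hy1 hσy
  subst hσ
  have hI := ind_mul _ hIy (ind_inv _ hIx)
  have hI' : Ind (Cfsg.quadFormPlus m F) (y * x⁻¹)
      (gy * Matrix.GeneralLinearGroup.map (σx : F →+* F)
        (Matrix.GeneralLinearGroup.map (σx.symm : F →+* F) gx⁻¹)) (RingEquiv.refl F) :=
    ind_congr _ hI rfl (fun z => by simp)
  obtain ⟨hinv_iff, hmul_iff⟩ := h28_char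
    (Cfsg.Geo.quadSimilarityGroup (F := F) (Cfsg.quadFormPlus m F))
    (fun g : GL (Fin m ⊕ Fin m) F => PreservesSingularClasses (Cfsg.quadFormPlus m F)
      (g : Matrix (Fin m ⊕ Fin m) (Fin m ⊕ Fin m) F))
    (pres_mul_plus hm1) (pres_inv_plus hm1) (h28_nn_plus hm1)
  have hC := h28_sim_map σx.symm gx⁻¹ (Subgroup.inv_mem _ hgx)
  have hD := h28_sim_map σx _ hC
  refine Subgroup.subset_closure ⟨_, Subgroup.mul_mem _ hgy hD, ?_, hI'.2⟩
  have e1 := hmul_iff _ _ hgy hD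
  have e2 := h28_pres_map_iff hm1 σx _ hC
  have e3 := h28_pres_map_iff hm1 σx.symm gx⁻¹ (Subgroup.inv_mem _ hgx)
  have e4 := hinv_iff gx hgx
  tauto

end Cfsg.Agent.Lib.Helper28.GFCONJ
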