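import Cfsg.Agent.Lib.Helper98.H74Defs

/-!
# Project H74 (S5974, helper98), piece TOP (helper28)
-/

set_option autoImplicit false

namespace Cfsg.Agent.Lib.Helper98.H74

open Cfsg.Agent.Lib.Helper47 Cfsg.Agent.Lib.Helper98.T73 Module Polynomial

universe u

variable {F : Type u} [Field F] [Fintype F] {V : Type u} [AddCommGroup V] [Module F V]
  [FiniteDimensional F V] {Q : V → F} {B : V → V → F}

/-- TOP -/
theorem subtyp_le (hQ : IsQuad Q B) (K W : Submodule F V) (e k : ℕ) (η τ : ℤ)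
    (hK : SubTyp Q B K e η) (hW : SubTyp Q B W k τ) (hWK : W ≤ K) :
    k ≤ e ∧ (k = e → τ = η) := by
  obtain ⟨-, hKd, hKt⟩ := hK
  obtain ⟨-, hWd, hWt⟩ := hW
  have hle : finrank F W ≤ finrank F K := Submodule.finrank_mono hWK
  refine ⟨by omega, fun hke => ?_⟩
  have heq : W = K := Submodule.eq_of_le_of_finrank_eq hWK (by rw [hWd, hKd, hke])
  subst heq
  subst hke
  exact IsTyp.unique hWt hKt

end Cfsg.Agent.Lib.Helper98.H74
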