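import Cfsg.Agent.Lib.Helper96.HyDefs
import Cfsg.Agent.Lib.Helper61.O72COPYAux

/-!
Project HY (S5992, helper96), piece REP: a nondegenerate subspace of dimension at least two of a
symmetric bilinear space over a finite field of odd characteristic represents every nonzero
scalar (from `Helper61.O72COPYAux.copy_represents`).
-/

set_option autoImplicit false
set_option linter.unusedSectionVars false
set_option linter.unusedVariables false

namespace Cfsg.Agent.Lib.Helper28.Hy

open Module Polynomial Cfsg.Agent.Lib.Helper96.Sp Cfsg.Agent.Lib.Helper96.Hy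
  Cfsg.Agent.Lib.Helper47

universe u

variable {F : Type u} [Field F] [Fintype F] {V : Type u} [AddCommGroup V] [Module F V]
  [FiniteDimensional F V] {B : LinearMap.BilinForm F V}

-- PIECE REP
theorem rep (hS : B.IsSymm) (h2 : (2 : F) ≠ 0) (K : Submodule F V) (hK : ND B K)
    (h2K : 2 ≤ finrank F K) (a : F) (ha : a ≠ 0) : ∃ v ∈ K, B v v = a :=
  Cfsg.Agent.Lib.Helper98.O72.copy_represents hS h2 hK h2K a

end Cfsg.Agent.Lib.Helper28.Hy
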