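import Mathlib
import Cfsg.Agent.Lib.Helper45.MinIdxA

/-!
# S2140, piece LTINV (helper28)

`perp_inv`: if a family of additive subgroups of `F^k` is permuted by `SL_k`, so is the family
of their orthogonal complements (with respect to `(w, x) ↦ τ (w ⬝ᵥ x)`).
-/

set_option autoImplicit false

namespace Cfsg.Agent.Lib.Helper28.MinIdx

open Matrix Cfsg.Agent.Lib.Helper50 Cfsg.Agent.Lib.Helper45.MinIdx

theorem dot_transpose_inv {F : Type*} [Field F] {k : ℕ}
    (A : Matrix.SpecialLinearGroup (Fin k) F) (x z : Fin k → F) :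
    ((A : Matrix (Fin k) (Fin k) F) *ᵥ x) ⬝ᵥ
      (((A⁻¹).transpose : Matrix.SpecialLinearGroup (Fin k) F) : Matrix (Fin k) (Fin k) F) *ᵥ z
      = x ⬝ᵥ z := by
  have h1 : (((A⁻¹).transpose : Matrix.SpecialLinearGroup (Fin k) F) :
      Matrix (Fin k) (Fin k) F) = ((A⁻¹ : Matrix.SpecialLinearGroup (Fin k) F) :
      Matrix (Fin k) (Fin k) F)ᵀ := Matrix.SpecialLinearGroup.coe_transpose _
  have h2 : ((A⁻¹ : Matrix.SpecialLinearGroup (Fin k) F) : Matrix (Fin k) (Fin k) F) *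
      (A : Matrix (Fin k) (Fin k) F) = 1 := by
    rw [← Matrix.SpecialLinearGroup.coe_mul, inv_mul_cancel, Matrix.SpecialLinearGroup.coe_one]
  rw [h1, Matrix.mulVec_transpose, dotProduct_comm, Matrix.dotProduct_mulVec,
    Matrix.vecMul_vecMul, h2, Matrix.vecMul_one, dotProduct_comm]

theorem perp_inv {F : Type*} [Field F] {p : ℕ} (τ : F →+ ZMod p) (k t : ℕ)
    (W : Fin t → AddSubgroup (Fin k → F))
    (hinv : ∀ A : Matrix.SpecialLinearGroup (Fin k) F, ∃ π : Equiv.Perm (Fin t), ∀ i x,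
      ((A : Matrix (Fin k) (Fin k) F) *ᵥ x ∈ W (π i) ↔ x ∈ W i)) :
    ∀ A : Matrix.SpecialLinearGroup (Fin k) F, ∃ π : Equiv.Perm (Fin t), ∀ i x,
      ((A : Matrix (Fin k) (Fin k) F) *ᵥ x ∈ perp τ (W (π i)) ↔ x ∈ perp τ (W i)) := by
  intro A
  obtain ⟨π, hπ⟩ := hinv (A⁻¹).transpose
  refine ⟨π, fun i x => ⟨fun h z hz => ?_, fun h y hy => ?_⟩⟩
  · have h1 := h _ ((hπ i z).mpr hz)
    rwa [dot_transpose_inv] at h1
  · set A' : Matrix.SpecialLinearGroup (Fin k) F := (A⁻¹).transpose with hA'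
    have h2 : (A' : Matrix (Fin k) (Fin k) F) *
        ((A'⁻¹ : Matrix.SpecialLinearGroup (Fin k) F) : Matrix (Fin k) (Fin k) F) = 1 := by
      rw [← Matrix.SpecialLinearGroup.coe_mul, mul_inv_cancel, Matrix.SpecialLinearGroup.coe_one]
    have h3 : (A' : Matrix (Fin k) (Fin k) F) *ᵥ
        (((A'⁻¹ : Matrix.SpecialLinearGroup (Fin k) F) : Matrix (Fin k) (Fin k) F) *ᵥ y) = y := by
      rw [Matrix.mulVec_mulVec, h2, Matrix.one_mulVec]
    have h4 : ((A'⁻¹ : Matrix.SpecialLinearGroup (Fin k) F) : Matrix (Fin k) (Fin k) F) *ᵥ y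
        ∈ W i := by
      rw [← hπ i]
      rw [h3]
      exact hy
    have h5 := h _ h4
    rw [← dot_transpose_inv A, ← hA', h3] at h5
    exact h5

end Cfsg.Agent.Lib.Helper28.MinIdx
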