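import Mathlib
import Cfsg.Prelude.Def_GeometricClasses
import Cfsg.Prelude.Def_LieClassical
import Cfsg.Agent.Lib.Helper21.SUPU1

/-!
# Project OMP (helper71, S5814 / S5859), piece O1a

`O1a`: a reducible group of isometries of a non-degenerate quadratic form in odd dimension
(`2 ≠ 0`) stabilises a non-zero proper subspace which is totally singular, or non-degenerate of
even dimension (consider `W ⊓ W^⊥` for an invariant subspace `W`).
-/

set_option autoImplicit false

namespace Cfsg.Agent.Lib.Helper28.OMPO1a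

open Matrix Cfsg.Geo

variable {n : ℕ} {F : Type*} [Field F] [Fintype F]

set_option linter.unusedSectionVars false

/-- the dimension of the orthogonal complement -/
theorem O1a_finrank_perp (b : (Fin n → F) → (Fin n → F) → F) (hb : IsBilinearForm b)
    (W Wp : Submodule F (Fin n → F)) (hWp : ∀ v, v ∈ Wp ↔ ∀ w ∈ W, b w v = 0) :
    n ≤ Module.finrank F W + Module.finrank F Wp := by
  classical
  let φ : (Fin n → F) →ₗ[F] (W →ₗ[F] F) :=
    { toFun := fun v =>
        { toFun := fun w => b (w : Fin n → F) v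
          map_add' := fun x y => hb.add_left x y v
          map_smul' := fun c x => by
            simp only [RingHom.id_apply, smul_eq_mul]
            exact hb.smul_left c x v }
      map_add' := fun u v => by
        ext w
        exact hb.add_right w u v
      map_smul' := fun c v => by
        ext w
        simp only [RingHom.id_apply, LinearMap.smul_apply, smul_eq_mul]
        exact hb.smul_right c w v }
  have hker : LinearMap.ker φ = Wp := by
    ext v
    rw [LinearMap.mem_ker, hWp]
    constructor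
    · intro hv w hw
      exact congrArg (fun f : W →ₗ[F] F => f ⟨w, hw⟩) hv
    · intro hv
      ext w
      exact hv w w.2
  have h1 := LinearMap.finrank_range_add_finrank_ker φ
  have h2 : Module.finrank F (LinearMap.range φ) ≤ Module.finrank F W := by
    have h3 := Submodule.finrank_le (LinearMap.range φ)
    have h4 : Module.finrank F (W →ₗ[F] F) = Module.finrank F W :=
      Subspace.dual_finrank_eq (K := F) (V := W)
    rwa [h4] at h3
  rw [hker, Module.finrank_fin_fun] at h1
  omega

/-- O1a: a reducible group of isometries (`n` odd) stabilises a non-zero proper subspace which is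
totally singular, or non-degenerate of even dimension. -/
theorem O1a (Q : (Fin n → F) → F) (hQ : IsNondegenerateQuadraticForm Q) (h2 : (2 : F) ≠ 0)
    (hodd : Odd n) (H : Subgroup (GL (Fin n) F)) (hfix : FixesQuadForm (matrixSet H) Q)
    (h : ¬ ActsIrreducibly (matrixSet H)) :
    (∃ W : Submodule F (Fin n → F), W ≠ ⊥ ∧ W ≠ ⊤ ∧ IsTotallySingularQuad Q W ∧
      H ≤ subspaceStabilizer W) ∨
    (∃ W : Submodule F (Fin n → F), W ≠ ⊥ ∧ W ≠ ⊤ ∧ Even (Module.finrank F W) ∧
      IsNondegenerateOn (QuadraticMap.polar Q) W ∧ H ≤ subspaceStabilizer W) := by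
  classical
  have hb := hQ.polar_bilinear
  have hsymm : ∀ x y, QuadraticMap.polar Q x y = QuadraticMap.polar Q y x :=
    QuadraticMap.polar_comm Q
  have hb0 : ∀ w, QuadraticMap.polar Q w 0 = 0 := by
    intro w
    have h1 := hb.smul_right 0 w 0
    rwa [zero_smul, zero_mul] at h1
  have hself : ∀ v, QuadraticMap.polar Q v v = 2 * Q v := by
    intro v
    have h1 := hQ.smul 2 v
    rw [two_smul] at h1
    unfold QuadraticMap.polar
    rw [h1]
    ring
  have hiso : ∀ g ∈ H, ∀ u v, QuadraticMap.polar Q ((g : Matrix (Fin n) (Fin n) F) *ᵥ u)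
      ((g : Matrix (Fin n) (Fin n) F) *ᵥ v) = QuadraticMap.polar Q u v := by
    intro g hg u v
    have hg' : (g : Matrix (Fin n) (Fin n) F) ∈ matrixSet H := ⟨g, hg, rfl⟩
    unfold QuadraticMap.polar
    rw [← Matrix.mulVec_add, hfix _ hg', hfix _ hg', hfix _ hg']
  unfold ActsIrreducibly at h
  push Not at h
  obtain ⟨W, hW, hWbot, hWtop⟩ := h
  have hWinv : ∀ g ∈ H, ∀ w ∈ W, (g : Matrix (Fin n) (Fin n) F) *ᵥ w ∈ W := by
    intro g hg w hw
    have h1 := hW (g : Matrix (Fin n) (Fin n) F) ⟨g, hg, rfl⟩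
    have h3 : Matrix.toLin' (g : Matrix (Fin n) (Fin n) F) w ∈
        W.map (Matrix.toLin' (g : Matrix (Fin n) (Fin n) F)) := Submodule.mem_map_of_mem hw
    have h4 := h1 h3
    rwa [Matrix.toLin'_apply] at h4
  obtain ⟨Wp, hWp⟩ : ∃ Wp : Submodule F (Fin n → F),
      ∀ v, v ∈ Wp ↔ ∀ w ∈ W, QuadraticMap.polar Q w v = 0 :=
    ⟨{ carrier := {v | ∀ w ∈ W, QuadraticMap.polar Q w v = 0}
       add_mem' := by
         intro a c ha hc w hw
         rw [hb.add_right, ha w hw, hc w hw, add_zero]
       zero_mem' := fun w _ => hb0 w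
       smul_mem' := by
         intro c x hx w hw
         rw [hb.smul_right, hx w hw, mul_zero] }, fun v => Iff.rfl⟩
  have hWpinv : ∀ g ∈ H, ∀ v ∈ Wp, (g : Matrix (Fin n) (Fin n) F) *ᵥ v ∈ Wp := by
    intro g hg v hv
    rw [hWp]
    intro w hw
    have h1 : (g : Matrix (Fin n) (Fin n) F) *ᵥ
        (((g⁻¹ : GL (Fin n) F) : Matrix (Fin n) (Fin n) F) *ᵥ w) = w := by
      rw [Matrix.mulVec_mulVec, ← Units.val_mul, mul_inv_cancel, Units.val_one,
        Matrix.one_mulVec]
    have h3 := hiso g hg (((g⁻¹ : GL (Fin n) F) : Matrix (Fin n) (Fin n) F) *ᵥ w) v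
    rw [h1] at h3
    rw [h3]
    exact (hWp v).1 hv _ (hWinv g⁻¹ (H.inv_mem hg) w hw)
  have hstabW : H ≤ subspaceStabilizer W := Cfsg.Agent.Lib.Helper21.SUPU1.U1_stab H W hWinv
  have hstabWp : H ≤ subspaceStabilizer Wp := Cfsg.Agent.Lib.Helper21.SUPU1.U1_stab H Wp hWpinv
  by_cases hR : W ⊓ Wp = ⊥
  · right
    have hdim := O1a_finrank_perp _ hb W Wp hWp
    have hsup := Submodule.finrank_sup_add_finrank_inf_eq W Wp
    rw [hR, finrank_bot, add_zero] at hsup
    have hle : Module.finrank F ↥(W ⊔ Wp) ≤ n := by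
      have h3 := Submodule.finrank_le (W ⊔ Wp)
      rwa [Module.finrank_fin_fun] at h3
    have htop : W ⊔ Wp = ⊤ := by
      apply Submodule.eq_top_of_finrank_eq
      rw [Module.finrank_fin_fun]
      omega
    have hWnd : IsNondegenerateOn (QuadraticMap.polar Q) W := by
      intro w hw hw0
      have hnot : w ∉ Wp := by
        intro hwp
        have h3 : w ∈ W ⊓ Wp := ⟨hw, hwp⟩
        rw [hR] at h3
        exact hw0 ((Submodule.mem_bot F).1 h3)
      rw [hWp] at hnot
      push Not at hnot
      obtain ⟨x, hx, hxw⟩ := hnot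
      exact ⟨⟨x, hx, hxw⟩, ⟨x, hx, by rw [hsymm]; exact hxw⟩⟩
    have hWpnd : IsNondegenerateOn (QuadraticMap.polar Q) Wp := by
      intro v hv hv0
      obtain ⟨⟨y, hy⟩, -⟩ := hQ.nondegenerate v hv0
      have hymem : y ∈ W ⊔ Wp := by
        rw [htop]
        exact Submodule.mem_top
      obtain ⟨w, hw, x, hx, rfl⟩ := Submodule.mem_sup.1 hymem
      rw [hb.add_left, (hWp v).1 hv w hw, zero_add] at hy
      exact ⟨⟨x, hx, hy⟩, ⟨x, hx, by rw [hsymm]; exact hy⟩⟩
    have hWpbot : Wp ≠ ⊥ := by
      intro hbt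
      rw [hbt, finrank_bot] at hdim
      have hlt : Module.finrank F W < Module.finrank F (Fin n → F) :=
        Submodule.finrank_lt hWtop
      rw [Module.finrank_fin_fun] at hlt
      omega
    have hWptop : Wp ≠ ⊤ := by
      intro ht
      rw [ht, inf_top_eq] at hR
      exact hWbot hR
    by_cases hev : Even (Module.finrank F W)
    · exact ⟨W, hWbot, hWtop, hev, hWnd, hstabW⟩
    · refine ⟨Wp, hWpbot, hWptop, ?_, hWpnd, hstabWp⟩
      have hoddW : Odd (Module.finrank F W) := Nat.not_even_iff_odd.mp hev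
      have hsum : Module.finrank F W + Module.finrank F Wp = n := by omega
      by_contra hne
      have hoddWp : Odd (Module.finrank F Wp) := Nat.not_even_iff_odd.mp hne
      have hevn : Even n := by
        rw [← hsum]
        exact hoddW.add_odd hoddWp
      exact (Nat.not_even_iff_odd.mpr hodd) hevn
  · left
    refine ⟨W ⊓ Wp, hR, ?_, ?_, Cfsg.Agent.Lib.Helper21.SUPU1.U1_stab H (W ⊓ Wp) ?_⟩
    · intro ht
      apply hWtop
      rw [eq_top_iff, ← ht]
      exact inf_le_left
    · intro v hv
      have h1 : QuadraticMap.polar Q v v = 0 := (hWp v).1 hv.2 v hv.1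
      rw [hself] at h1
      rcases mul_eq_zero.mp h1 with h3 | h3
      · exact absurd h3 h2
      · exact h3
    · intro g hg v hv
      exact ⟨hWinv g hg v hv.1, hWpinv g hg v hv.2⟩

end Cfsg.Agent.Lib.Helper28.OMPO1a
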