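import Mathlib

/-!
S5981 (helper96), piece ARITHLE: pure arithmetic.
-/

set_option autoImplicit false

namespace Cfsg.Agent.Lib.Helper28.Oq

-- PIECE ARITHLE
theorem arith_le (q r n R t O S : ℕ) (hq : 2 ≤ q) (hr : r.Prime) (hr2 : r ≠ 2) (hrq : ¬ r ∣ q)
    (hS : S * (q - 1) = ∏ i : Fin n, (q ^ n - q ^ (i : ℕ))) (hidx : R * t * O = 2 * S)
    (hR : r ∣ R) : ∃ j, 1 ≤ j ∧ j ≤ n ∧ r ∣ q ^ j - 1 := by
  have h1 : r ∣ 2 * S := by
    rw [← hidx]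
    exact Dvd.dvd.mul_right (Dvd.dvd.mul_right hR t) O
  have h2 : r ∣ S := by
    rcases (Nat.Prime.dvd_mul hr).mp h1 with h | h
    · exact absurd ((Nat.prime_dvd_prime_iff_eq hr Nat.prime_two).mp h) hr2
    · exact h
  have h3 : r ∣ ∏ i : Fin n, (q ^ n - q ^ (i : ℕ)) := by
    rw [← hS]
    exact Dvd.dvd.mul_right h2 _
  obtain ⟨i, -, hi⟩ := (Prime.dvd_finsetProd_iff hr.prime _).mp h3
  have h4 : q ^ n - q ^ (i : ℕ) = q ^ (i : ℕ) * (q ^ (n - i) - 1) := by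
    rw [Nat.mul_sub, mul_one, ← pow_add, Nat.add_sub_cancel' i.2.le]
  rw [h4] at hi
  rcases (Nat.Prime.dvd_mul hr).mp hi with h | h
  · exact absurd (hr.dvd_of_dvd_pow h) hrq
  · exact ⟨n - i, by have := i.2; omega, Nat.sub_le _ _, h⟩

end Cfsg.Agent.Lib.Helper28.Oq
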