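import Cfsg.Agent.Lib.Helper22.PTDefs

set_option autoImplicit false

namespace Cfsg.Agent.Lib.Helper28.PT

open Cfsg Cfsg.Agent.Lib.Helper22.BFD Cfsg.Agent.Lib.Helper22.PT
open scoped ComplexConjugate

universe u

variable {G : Type u} [Group G] [Fintype G]

theorem epm_mem (p : ℕ) [Fact p.Prime] (z : G) (k : ZMod p) :
    k ∈ Ef p z ↔ IsConj (z ^ k.val) z := by
  simp [Ef]

theorem epm_mul (p : ℕ) [Fact p.Prime] (z : G) (hz : orderOf z = p) (a b : ZMod p)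
    (ha : IsConj (z ^ a.val) z) (hb : IsConj (z ^ b.val) z) : IsConj (z ^ (a * b).val) z := by
  have h1 : z ^ (a * b).val = (z ^ a.val) ^ b.val := by
    have h2 := pow_mod_orderOf z (a.val * b.val)
    rw [hz] at h2
    rw [ZMod.val_mul, h2, pow_mul]
  rw [h1]
  obtain ⟨c, hc⟩ := isConj_iff.1 ha
  have h2 : IsConj ((z ^ a.val) ^ b.val) (z ^ b.val) := by
    rw [isConj_iff]
    exact ⟨c, by rw [← conj_pow, hc]⟩
  exact h2.trans hb

/-- PIECE EPM -/
theorem epm (p : ℕ) [Fact p.Prime] (hp : 2 < p) (z : G) (hz : orderOf z = p)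
    (hE : (Ef p z).card = 2) :
    (∃ n : G, n * z * n⁻¹ = z⁻¹) ∧ ∀ k : ZMod p, IsConj (z ^ k.val) z → k = 1 ∨ k = -1 := by
  have hpp : p.Prime := Fact.out
  have h1mem : (1 : ZMod p) ∈ Ef p z := by
    rw [epm_mem, ZMod.val_one, pow_one]
  have h0 : (0 : ZMod p) ∉ Ef p z := by
    rw [epm_mem, ZMod.val_zero, pow_zero, isConj_one_right]
    intro h
    rw [h, orderOf_one] at hz
    exact hpp.one_lt.ne hz
  obtain ⟨x, y, hxy, hs⟩ := Finset.card_eq_two.1 hE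
  obtain ⟨k₀, hk₀1, hEf⟩ : ∃ k₀ : ZMod p, k₀ ≠ 1 ∧ Ef p z = {1, k₀} := by
    rw [hs, Finset.mem_insert, Finset.mem_singleton] at h1mem
    rcases h1mem with h | h
    · exact ⟨y, fun hy => hxy (by rw [← h, hy]), by rw [hs, h]⟩
    · exact ⟨x, fun hx => hxy (by rw [← h, hx]), by rw [hs, h, Finset.pair_comm]⟩
  have hk₀mem : k₀ ∈ Ef p z := by rw [hEf]; simp
  have hk₀0 : k₀ ≠ 0 := fun h => h0 (h ▸ hk₀mem)
  have hsq : k₀ * k₀ ∈ Ef p z := by
    rw [epm_mem] at hk₀mem ⊢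
    exact epm_mul p z hz k₀ k₀ hk₀mem hk₀mem
  have hk₀ : k₀ = -1 := by
    rw [hEf, Finset.mem_insert, Finset.mem_singleton] at hsq
    rcases hsq with h | h
    · rcases mul_self_eq_one_iff.1 h with h' | h'
      · exact absurd h' hk₀1
      · exact h'
    · exfalso
      have h2 : k₀ * (k₀ - 1) = 0 := by rw [mul_sub, mul_one, h, sub_self]
      rcases mul_eq_zero.1 h2 with h' | h'
      · exact hk₀0 h'
      · exact hk₀1 (sub_eq_zero.1 h')
  refine ⟨?_, ?_⟩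
  · have hinv : z ^ (-1 : ZMod p).val = z⁻¹ := by
      apply eq_inv_of_mul_eq_one_left
      have h2 := ZMod.val_add (-1 : ZMod p) 1
      rw [neg_add_cancel, ZMod.val_zero, ZMod.val_one] at h2
      have h4 := pow_mod_orderOf z ((-1 : ZMod p).val + 1)
      rw [hz, ← h2, pow_zero] at h4
      rw [← pow_succ]
      exact h4.symm
    have hm : (-1 : ZMod p) ∈ Ef p z := hk₀ ▸ hk₀mem
    rw [epm_mem, hinv] at hm
    obtain ⟨c, hc⟩ := isConj_iff.1 hm
    refine ⟨c, ?_⟩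
    calc c * z * c⁻¹ = (c * z⁻¹ * c⁻¹)⁻¹ := by group
      _ = z⁻¹ := by rw [hc]
  · intro k hk
    have hkm : k ∈ Ef p z := (epm_mem p z k).2 hk
    rw [hEf, Finset.mem_insert, Finset.mem_singleton, hk₀] at hkm
    exact hkm

end Cfsg.Agent.Lib.Helper28.PT
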