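import Cfsg.Agent.Lib.Helper22.PTDefs

set_option autoImplicit false

namespace Cfsg.Agent.Lib.Helper28.PT

open Cfsg Cfsg.Agent.Lib.Helper22.BFD Cfsg.Agent.Lib.Helper22.PT
open scoped ComplexConjugate

universe u

/-- PIECE NO2 -/
theorem no2 {G : Type u} [Group G] (hc : Subgroup.center G = ⊥) (N : Subgroup G)
    (hN : N.Normal) : Nat.card N ≠ 2 := by
  intro h2
  obtain ⟨t, ht1, htu⟩ := (Nat.card_eq_two_iff' (1 : N)).1 h2
  have ht1' : (t : G) ≠ 1 := fun h => ht1 (Subtype.ext h)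
  have hcen : (t : G) ∈ Subgroup.center G := by
    rw [Subgroup.mem_center_iff]
    intro g
    have hmem : g * (t : G) * g⁻¹ ∈ N := hN.conj_mem t.1 t.2 g
    have hne : (⟨g * (t : G) * g⁻¹, hmem⟩ : N) ≠ 1 := by
      intro h
      have h3 : g * (t : G) * g⁻¹ = 1 := congrArg Subtype.val h
      apply ht1'
      have h4 : (t : G) = g⁻¹ * (g * (t : G) * g⁻¹) * g := by group
      rw [h4, h3]
      group
    have heq := htu ⟨g * (t : G) * g⁻¹, hmem⟩ hne
    have h5 : g * (t : G) * g⁻¹ = (t : G) := congrArg Subtype.val heq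
    calc g * (t : G) = g * (t : G) * g⁻¹ * g := by group
      _ = (t : G) * g := by rw [h5]
  rw [hc, Subgroup.mem_bot] at hcen
  exact ht1' hcen

end Cfsg.Agent.Lib.Helper28.PT
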