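import Cfsg.Agent.Lib.Helper22.PTDefs
import Cfsg.Agent.Lib.Helper4.Eigen

set_option autoImplicit false

namespace Cfsg.Agent.Lib.Helper28.PT

open Cfsg Cfsg.Agent.Lib.Helper22.BFD Cfsg.Agent.Lib.Helper22.PT
open scoped ComplexConjugate

universe u

variable {G : Type u} [Group G] [Fintype G]

/-- a fourth root of unity is a Gaussian integer -/
theorem no4_root (μ : ℂ) (h : μ ^ 4 = 1) : ∃ a b : ℤ, μ = (a : ℂ) + (b : ℂ) * Complex.I := by
  have h1 : (μ - 1) * ((μ + 1) * ((μ - Complex.I) * (μ + Complex.I))) = 0 := by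
    have hI : Complex.I ^ 2 = -1 := Complex.I_sq
    linear_combination h - (μ ^ 2 - 1) * hI
  rcases mul_eq_zero.1 h1 with h2 | h2
  · exact ⟨1, 0, by push_cast; linear_combination h2⟩
  · rcases mul_eq_zero.1 h2 with h3 | h3
    · exact ⟨-1, 0, by push_cast; linear_combination h3⟩
    · rcases mul_eq_zero.1 h3 with h4 | h4
      · exact ⟨0, 1, by push_cast; linear_combination h4⟩
      · exact ⟨0, -1, by push_cast; linear_combination h4⟩

/-- a sum of fourth roots of unity is a Gaussian integer -/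
theorem no4_sum {ι : Type*} [Fintype ι] (μ : ι → ℂ) (h : ∀ i, μ i ^ 4 = 1) :
    ∃ a b : ℤ, ∑ i, μ i = (a : ℂ) + (b : ℂ) * Complex.I := by
  choose a b hab using fun i => no4_root (μ i) (h i)
  refine ⟨∑ i, a i, ∑ i, b i, ?_⟩
  push_cast
  rw [Finset.sum_mul, ← Finset.sum_add_distrib]
  exact Finset.sum_congr rfl fun i _ => hab i

/-- the integer arithmetic -/
theorem no4_arith (P a b : ℤ) (hP : 5 < P) (h1 : a ^ 2 - b ^ 2 + 1 = (P - 3) * a)
    (h2 : 2 * a * b = (P - 3) * b) : False := by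
  by_cases hb : b = 0
  · subst hb
    have h3 : a * (P - 3 - a) = 1 := by linear_combination -h1
    rcases Int.eq_one_or_neg_one_of_mul_eq_one h3 with ha | ha
    · subst ha
      omega
    · subst ha
      omega
  · have h3 : 2 * a = P - 3 := by
      have h4 : (2 * a - (P - 3)) * b = 0 := by linear_combination h2
      rcases mul_eq_zero.1 h4 with h5 | h5
      · linarith
      · exact absurd h5 hb
    have h5 : a ^ 2 + b ^ 2 = 1 := by
      have h6 : (P - 3) * a = 2 * a * a := by rw [← h3]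
      nlinarith
    have hb2 : 1 ≤ b ^ 2 := by
      rcases lt_or_gt_of_ne hb with h7 | h7
      · nlinarith
      · nlinarith
    have ha0 : a = 0 := by
      have h8 : a ^ 2 ≤ 0 := by linarith
      exact pow_eq_zero_iff (two_ne_zero) |>.1 (le_antisymm h8 (sq_nonneg a))
    subst ha0
    omega

/-- PIECE NO4 -/
theorem no4 (p : ℕ) [Fact p.Prime] (z : G) (ζ : G → ℂ) (h : Hyp G p z ζ) (s : ℕ)
    (hs : Sq2 G p s)
    (hE1 : ∀ g, ¬ p ∣ orderOf g → ζ g ^ 2 - ζ (g ^ 2) = ((p : ℂ) - 3) * ζ (g ^ s))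
    (hinv : ∀ τ : G, orderOf τ = 2 → ζ τ = -1) (g : G) : orderOf g ≠ 4 := by
  intro hg
  have hp5 := h.p5
  have hreg : ¬ p ∣ orderOf g := by
    rw [hg]
    intro hd
    have := Nat.le_of_dvd (by norm_num) hd
    omega
  have hgs : g ^ s = g := by
    apply hs.fix
    intro q hq hqd
    left
    rw [hg] at hqd
    have h4 : (4 : ℕ) = 2 ^ 2 := by norm_num
    rw [h4] at hqd
    exact (Nat.prime_dvd_prime_iff_eq hq Nat.prime_two).1 (hq.dvd_of_dvd_pow hqd)
  have hg2 : orderOf (g ^ 2) = 2 := by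
    rw [orderOf_pow' g (by norm_num), hg]
    rfl
  have hz2 : ζ (g ^ 2) = -1 := hinv _ hg2
  have hE := hE1 g hreg
  rw [hgs, hz2] at hE
  -- `ζ g` is a Gaussian integer
  obtain ⟨n, ρ, -, hχ⟩ := h.irr
  obtain ⟨ι, hι, hd, v, μ, hμ1, hμ2, -, -⟩ := Cfsg.Agent.Lib.Helper4.exists_eigenbasis_rep ρ g
  have hζ : ζ g = ∑ i, μ i := by
    rw [← hχ, Representation.character,
      Cfsg.Agent.Lib.Helper4.trace_eq_sum_of_eigenbasis v (ρ g) μ hμ1]
  obtain ⟨a, b, hab⟩ := no4_sum μ (fun i => by have := hμ2 i; rwa [hg] at this)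
  rw [hζ, hab] at hE
  have hre := congrArg Complex.re hE
  have him := congrArg Complex.im hE
  simp only [Complex.sub_re, Complex.sub_im, Complex.mul_re, Complex.mul_im, Complex.add_re,
    Complex.add_im, Complex.intCast_re, Complex.intCast_im, Complex.I_re, Complex.I_im,
    Complex.natCast_re, Complex.natCast_im, Complex.neg_re, Complex.neg_im, Complex.one_re,
    Complex.one_im, Complex.re_ofNat, Complex.im_ofNat, sq, mul_zero, mul_one, zero_mul,
    sub_zero, add_zero, zero_add, neg_zero] at hre him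
  have h1 : (a : ℝ) ^ 2 - (b : ℝ) ^ 2 + 1 = (((p : ℤ) : ℝ) - 3) * a := by
    push_cast
    linarith
  have h2 : 2 * (a : ℝ) * b = (((p : ℤ) : ℝ) - 3) * b := by
    push_cast
    linarith
  exact no4_arith (p : ℤ) a b (by exact_mod_cast hp5) (by exact_mod_cast h1)
    (by exact_mod_cast h2)

end Cfsg.Agent.Lib.Helper28.PT
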