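import Mathlib
import Cfsg.Prelude.Def_CaseTheorems
import Cfsg.Agent.Lib.Helper28.R2U3

set_option autoImplicit false
set_option linter.unusedSectionVars false
set_option linter.style.haveILetI false
set_option linter.unusedSimpArgs false
set_option linter.unusedVariables false

/-! Rank-two 2-groups with an automorphism transitive on involutions (helper28):
setting up the hypotheses. -/

namespace Cfsg.Agent.Lib.Helper28.R2

open Cfsg.Agent.Lib.Helper60

universe u

section Asm

variable {T : Type u} [Group T]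

theorem aut_pow_fix (φ : MulAut T) {e : T} (he : φ e = e) (k : ℕ) : (φ ^ k) e = e := by
  induction k with
  | zero => simp
  | succ k ih => rw [pow_succ, MulAut.mul_apply, he, ih]

theorem aut_iterate (φ : MulAut T) (k : ℕ) (t : T) : (fun x => φ x)^[k] t = (φ ^ k) t := by
  induction k generalizing t with
  | zero => simp
  | succ k ih => rw [Function.iterate_succ_apply, ih, pow_succ, MulAut.mul_apply]

/-- The hypotheses of the statement give the set-up `R2`. -/
theorem asm [Finite T] (hT : IsPGroup 2 T) (h2 : Cfsg.PRankLE 2 2 T)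
    (h1 : ¬ Cfsg.PRankLE 2 1 T) (φ : MulAut T)
    (htrans : ∀ s t : T, orderOf s = 2 → orderOf t = 2 → ∃ k : ℕ, (φ ^ k) s = t) :
    ∃ (E : Subgroup T) (ψ : T →* T), R2 T E ψ := by
  classical
  haveI : Fact (Nat.Prime 2) := ⟨Nat.prime_two⟩
  unfold Cfsg.PRankLE at h1
  push_neg at h1
  obtain ⟨A, hAc, hAe, hAcard⟩ := h1
  obtain ⟨f₁, f₂, hf12, hf1, hf2⟩ := exists_two_ne_one (G := ↥A) (by omega)
  have hinv : ∀ t : T, t * t = 1 → t ≠ 1 → orderOf t = 2 := fun t ht ht1 =>
    orderOf_eq_prime (by rw [pow_two]; exact ht) ht1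
  -- a central involution
  haveI : Nontrivial T := ⟨⟨f₁.1, 1, fun h0 => hf1 (Subtype.ext h0)⟩⟩
  haveI := hT.center_nontrivial
  obtain ⟨c, hc1⟩ := exists_ne (1 : Subgroup.center T)
  obtain ⟨j, hj1, hj2⟩ := exists_pow_notMem hT (⊥ : Subgroup T) (g := (c : T)) (by
    rw [Subgroup.mem_bot]
    intro h0
    exact hc1 (Subtype.ext h0))
  obtain ⟨z₀, hz₀⟩ : ∃ z₀ : T, z₀ = (c : T) ^ 2 ^ j := ⟨_, rfl⟩
  rw [← hz₀] at hj1 hj2
  have hz1 : z₀ ≠ 1 := by simpa using hj1
  have hz2 : z₀ * z₀ = 1 := by simpa using hj2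
  have hzc : z₀ ∈ Subgroup.center T := hz₀ ▸ Subgroup.pow_mem _ c.2 _
  -- all involutions are central
  have hcen : ∀ t : T, t * t = 1 → t ∈ Subgroup.center T := by
    intro t ht
    by_cases ht1 : t = 1
    · rw [ht1]; exact Subgroup.one_mem _
    obtain ⟨k, hk⟩ := htrans z₀ t (hinv z₀ hz2 hz1) (hinv t ht ht1)
    rw [Subgroup.mem_center_iff]
    intro g
    obtain ⟨g', rfl⟩ := (φ ^ k).surjective g
    rw [← hk, ← map_mul, ← map_mul, Subgroup.mem_center_iff.mp hzc g']
  -- the subgroup of elements of square one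
  let E : Subgroup T :=
    { carrier := {t | t * t = 1}
      one_mem' := by simp
      mul_mem' := by
        intro a b ha hb
        have ha' : a * a = 1 := ha
        have hb' : b * b = 1 := hb
        have hbc := Subgroup.mem_center_iff.mp (hcen b hb') a
        show (a * b) * (a * b) = 1
        calc a * b * (a * b) = a * (b * a) * b := by group
          _ = a * (a * b) * b := by rw [← hbc]
          _ = (a * a) * (b * b) := by group
          _ = 1 := by rw [ha', hb', one_mul]
      inv_mem' := by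
        intro a ha
        have ha' : a * a = 1 := ha
        show a⁻¹ * a⁻¹ = 1
        calc a⁻¹ * a⁻¹ = (a * a)⁻¹ := by group
          _ = 1 := by rw [ha', inv_one] }
  have hEmem : ∀ t : T, t ∈ E ↔ t * t = 1 := fun t => Iff.rfl
  have hEcen : E ≤ Subgroup.center T := fun t ht => hcen t ht
  have hEcm : ∀ e ∈ E, ∀ t : T, e * t = t * e := fun e he t =>
    (Subgroup.mem_center_iff.mp (hEcen he) t).symm
  have hEcard : Nat.card E ≤ 4 := by
    have := h2 E ⟨⟨fun a b => Subtype.ext (hEcm a.1 a.2 b.1)⟩⟩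
      (fun a ha => by rw [pow_two]; exact ha)
    exact this.trans (by norm_num)
  have hAE : ∀ a ∈ A, a ∈ E := fun a ha => by
    rw [hEmem, ← pow_two]
    exact hAe a ha
  have hφE : ∀ e ∈ E, φ e ∈ E := by
    intro e he
    rw [hEmem] at he ⊢
    rw [← map_mul, he, map_one]
  -- `φ` moves every involution
  have hφmov : ∀ e ∈ E, φ e = e → e = 1 := by
    intro e he hfix
    by_contra hne
    have key : ∀ f : T, f * f = 1 → f ≠ 1 → f = e := by
      intro f hf hf1'
      obtain ⟨k, hk⟩ := htrans e f (hinv e he hne) (hinv f hf hf1')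
      rw [aut_pow_fix φ hfix] at hk
      exact hk.symm
    have e1 := key f₁.1 (hAE _ f₁.2) (fun h0 => hf1 (Subtype.ext h0))
    have e2 := key f₂.1 (hAE _ f₂.2) (fun h0 => hf2 (Subtype.ext h0))
    exact hf12 (Subtype.ext (e1.trans e2.symm))
  have htab : ∀ e ∈ E, e ≠ 1 → ETab E φ.toMonoidHom e (φ e) (φ (φ e)) := fun e he hne =>
    etab' (ψ := φ.toMonoidHom) φ.injective (fun _ he => he) hEcard hEcm hφE hφmov he hne
  -- the `3`-part of `φ`
  obtain ⟨a, m, hm3, hord⟩ := Nat.exists_eq_pow_mul_and_not_dvd (orderOf_pos φ).ne' 3 (by norm_num)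
  have hcube : ∀ e ∈ E, ∀ q : ℕ, (φ ^ (3 * q)) e = e := by
    intro e he q
    by_cases hne : e = 1
    · rw [hne, map_one]
    have h3 : (φ ^ 3) e = e := by
      have := (htab e he hne).p2
      simpa [pow_succ, MulAut.mul_apply] using this
    rw [pow_mul]
    exact aut_pow_fix (φ ^ 3) h3 q
  have hmov : ∀ e ∈ E, (φ ^ m) e = e → e = 1 := by
    intro e he hfix
    by_contra hne
    have tab := htab e he hne
    have hm : m = m % 3 + 3 * (m / 3) := (Nat.mod_add_div m 3).symm
    rw [hm, pow_add, MulAut.mul_apply, hcube e he] at hfix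
    have hr : m % 3 = 1 ∨ m % 3 = 2 := by omega
    rcases hr with hr | hr
    · rw [hr, pow_one] at hfix
      exact tab.n01 hfix.symm
    · rw [hr, pow_two, MulAut.mul_apply] at hfix
      exact tab.n02 hfix.symm
  refine ⟨E, (φ ^ m).toMonoidHom, ?_⟩
  refine
    { fin := inferInstance
      pg := hT
      inj := (φ ^ m).injective
      ord := ⟨a, fun t => ?_⟩
      mem := fun t => Iff.rfl
      card := hEcard
      ne := ⟨z₀, hz2, hz1⟩
      cen := hEcen
      mov := hmov }
  have h3 : (fun x => (φ ^ m).toMonoidHom x) = (fun x => (φ ^ m) x) := rfl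
  rw [h3, aut_iterate, ← pow_mul, mul_comm, ← hord, pow_orderOf_eq_one]
  rfl

end Asm

end Cfsg.Agent.Lib.Helper28.R2
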