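import Mathlib
import Cfsg.Prelude.Def_GeometricClasses
import Cfsg.Prelude.Def_LieClassical
import Cfsg.Agent.Lib.Helper93.SUPair
import Cfsg.Agent.Lib.Helper64.SLPN3
import Cfsg.Agent.Lib.Helper18.UnitaryFr

/-!
# SUP piece NU3 (helper28 for helper71): `SU_n(q)` does not normalise a field subalgebra `K ≠ F`
-/

set_option autoImplicit false
set_option linter.unusedSectionVars false
set_option linter.unusedVariables false

namespace Cfsg.Agent.Lib.Helper28.SUPNU3

open Matrix Cfsg.Geo
open Cfsg.Agent.Lib.Helper7 Cfsg.Agent.Lib.Helper18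

variable {n : ℕ} {F : Type*} [Field F] [Fintype F] {q : ℕ}

/-- a matrix having every non-zero isotropic vector as an eigenvector is scalar -/
theorem NU3_scalar (hF : Fintype.card F = q ^ 2) (hn : 2 ≤ n) (x : Matrix (Fin n) (Fin n) F)
    (h : ∀ v : Fin n → F, v ≠ 0 → Cfsg.hermForm n F q v v = 0 → ∃ l : F, x *ᵥ v = l • v) :
    ∃ c : F, x = c • 1 := by
  apply Cfsg.Agent.Lib.Helper64.SLPN3.N3_scalar (by omega) x
  intro u
  by_cases huu : Cfsg.hermForm n F q u u = 0
  · by_cases hu0 : u = 0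
    · rw [hu0, Matrix.mulVec_zero]
      exact Submodule.zero_mem _
    · obtain ⟨l, hl⟩ := h u hu0 huu
      rw [hl]
      exact Submodule.smul_mem _ _ (Submodule.subset_span rfl)
  · obtain ⟨s, hss, hus⟩ := exists_iso_one hF hn u huu
    have hsu : Cfsg.hermForm n F q s u = 1 := by rw [hf_conj hF n u s, hus, one_pow]
    obtain ⟨c, hc⟩ : ∃ c : F, c + c ^ q = Cfsg.hermForm n F q u u := by
      obtain ⟨l, hl⟩ := exists_trace_one hF
      refine ⟨Cfsg.hermForm n F q u u * l, ?_⟩
      rw [mul_pow, hf_self_pow hF n u]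
      linear_combination Cfsg.hermForm n F q u u * hl
    obtain ⟨μ, hμ0, hμ⟩ := exists_trace_zero_ne hF
    have hs0 : s ≠ 0 := by
      rintro rfl
      rw [hf_zero_right hF] at hus
      exact zero_ne_one hus
    have hiso : ∀ d : F, d + d ^ q = Cfsg.hermForm n F q u u →
        Cfsg.hermForm n F q (u - d • s) (u - d • s) = 0 := by
      intro d hd
      simp only [hf_sub_left, hf_sub_right hF, hf_smul_left, hf_smul_right, hss, hus, hsu]
      linear_combination -hd
    have hne : ∀ d : F, u - d • s ≠ 0 := by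
      intro d h0
      apply huu
      have h1 : u = d • s := sub_eq_zero.mp h0
      rw [h1, hf_smul_left, hf_smul_right, hss]
      ring
    obtain ⟨l₁, hl₁⟩ := h (u - c • s) (hne c) (hiso c hc)
    have hc3 : (c - μ) + (c - μ) ^ q = Cfsg.hermForm n F q u u := by
      rw [herm_sub_pow hF]
      linear_combination hc - hμ
    obtain ⟨l₃, hl₃⟩ := h (u - (c - μ) • s) (hne _) (hiso _ hc3)
    obtain ⟨ls, hls⟩ := h s hs0 hss
    rw [Matrix.mulVec_sub, Matrix.mulVec_smul, hls] at hl₁ hl₃
    have e1 : x *ᵥ u = l₁ • (u - c • s) + c • ls • s := by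
      rw [← hl₁]
      abel
    have e3 : x *ᵥ u = l₃ • (u - (c - μ) • s) + (c - μ) • ls • s := by
      rw [← hl₃]
      abel
    have e13 := e1.symm.trans e3
    have h13 := congrArg (fun w => Cfsg.hermForm n F q w s) e13
    simp only [hf_add_left, hf_smul_left, hf_sub_left, hss, hus] at h13
    have hl13 : l₁ = l₃ := by linear_combination h13
    have h13' := congrArg (fun w => Cfsg.hermForm n F q w u) e13
    simp only [hf_add_left, hf_smul_left, hf_sub_left, hsu] at h13'
    rw [← hl13] at h13'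
    have hls1 : ls = l₁ := by
      have h0 : μ * (l₁ - ls) = 0 := by linear_combination -h13'
      rcases mul_eq_zero.mp h0 with h' | h'
      · exact absurd h' hμ0
      · exact (sub_eq_zero.mp h').symm
    have hxu : x *ᵥ u = l₁ • u := by
      rw [e1, hls1]
      module
    rw [hxu]
    exact Submodule.smul_mem _ _ (Submodule.subset_span rfl)

/-- NU3 -/
theorem NU3 (hF : Fintype.card F = q ^ 2) (hn : 3 ≤ n) (r : ℕ) (hr : 2 ≤ r)
    (K : Subalgebra F (Matrix (Fin n) (Fin n) F)) (hK : IsFieldSubalgebra r K) :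
    ¬ (Cfsg.GU n F q ⊓ specialLinear (Fin n) F) ≤ subalgebraNormalizer K := by
  intro hle
  -- (a) a non-scalar element of `K`
  obtain ⟨x, hxK, hxs⟩ : ∃ x ∈ K, ¬ ∃ c : F, x = c • (1 : Matrix (Fin n) (Fin n) F) := by
    by_contra hcon
    have hall : ∀ x ∈ K, ∃ c : F, x = c • (1 : Matrix (Fin n) (Fin n) F) := by
      intro x hx
      by_contra h
      exact hcon ⟨x, hx, h⟩
    have h1 : Subalgebra.toSubmodule K ≤ Submodule.span F {(1 : Matrix (Fin n) (Fin n) F)} := by
      intro x hx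
      obtain ⟨c, hc⟩ := hall x hx
      rw [hc]
      exact Submodule.smul_mem _ _ (Submodule.subset_span rfl)
    have h2 := Submodule.finrank_mono h1
    have h3 : Module.finrank F (Submodule.span F {(1 : Matrix (Fin n) (Fin n) F)}) ≤ 1 := by
      have := finrank_span_finset_le_card (R := F) ({(1 : Matrix (Fin n) (Fin n) F)} : Finset _)
      rw [Finset.coe_singleton, Finset.card_singleton] at this
      exact this
    have h4 : Module.finrank F (Subalgebra.toSubmodule K) = r := hK.finrank_eq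
    omega
  -- elements of `K` with nontrivial kernel vanish
  have hker : ∀ y ∈ K, ∀ v : Fin n → F, v ≠ 0 → y *ᵥ v = 0 → y = 0 := by
    intro y hy v hv hyv
    by_contra hy0
    obtain ⟨z, hz, hyz⟩ := hK.inv y hy hy0
    have hzy : z * y = 1 := by rw [← hK.comm y hy z hz, hyz]
    apply hv
    have h1 : (z * y) *ᵥ v = v := by rw [hzy, Matrix.one_mulVec]
    rw [← h1, ← Matrix.mulVec_mulVec, hyv, Matrix.mulVec_zero]
  apply hxs
  apply NU3_scalar hF (by omega) x
  intro v hv0 hvv
  obtain ⟨μ, hμ0, hμq⟩ := exists_trace_zero_ne hF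
  have hμ : μ + μ ^ q = 0 := by rw [hμq]; ring
  -- the transvection
  obtain ⟨t, ht, htS⟩ := Cfsg.Agent.Lib.Helper93.exists_gl_of_pres
    (transvection_preserves hF n v μ hvv hμ) (transvection_det n v μ hvv)
  have htv : ∀ w : Fin n → F, t.1 *ᵥ w = w + (μ * Cfsg.hermForm n F q w v) • v := by
    intro w
    have h1 : t.1 = Cfsg.unitaryTransvection n q v μ := ht
    rw [h1]
    exact unitaryTransvection_mulVec n v μ w
  -- a common non-zero solution of the two linear conditions
  obtain ⟨a, ha0, hav, hxav⟩ : ∃ a : Fin n → F, a ≠ 0 ∧ Cfsg.hermForm n F q a v = 0 ∧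
      Cfsg.hermForm n F q (x *ᵥ a) v = 0 := by
    let L : (Fin n → F) →ₗ[F] (F × F) :=
      { toFun := fun a => (Cfsg.hermForm n F q a v, Cfsg.hermForm n F q (x *ᵥ a) v)
        map_add' := fun a b => by
          rw [Matrix.mulVec_add, hf_add_left, hf_add_left]
          rfl
        map_smul' := fun c a => by
          rw [Matrix.mulVec_smul, hf_smul_left, hf_smul_left]
          rfl }
    have hlt : Module.finrank F (F × F) < Module.finrank F (Fin n → F) := by
      rw [Module.finrank_prod, Module.finrank_self, Module.finrank_fin_fun]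
      omega
    have hkb := LinearMap.ker_ne_bot_of_finrank_lt (f := L) hlt
    obtain ⟨a, haL, ha0⟩ := Submodule.exists_mem_ne_zero_of_ne_bot hkb
    rw [LinearMap.mem_ker] at haL
    have h1 : (Cfsg.hermForm n F q a v, Cfsg.hermForm n F q (x *ᵥ a) v) = (0, 0) := haL
    exact ⟨a, ha0, (Prod.mk.inj h1).1, (Prod.mk.inj h1).2⟩
  have hyK : t.1 * x * (t⁻¹ : GL (Fin n) F).1 ∈ K := ((hle htS) x).mp hxK
  have hta : t.1 *ᵥ a = a := by rw [htv, hav, mul_zero, zero_smul, add_zero]
  have htia : (t⁻¹ : GL (Fin n) F).1 *ᵥ a = a := by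
    have h1 : (t⁻¹ : GL (Fin n) F).1 *ᵥ (t.1 *ᵥ a) = a := by
      rw [Matrix.mulVec_mulVec, Units.inv_mul, Matrix.one_mulVec]
    rwa [hta] at h1
  have hya : (t.1 * x * (t⁻¹ : GL (Fin n) F).1) *ᵥ a = x *ᵥ a := by
    rw [← Matrix.mulVec_mulVec, ← Matrix.mulVec_mulVec, htia, htv, hxav, mul_zero, zero_smul,
      add_zero]
  have hyx : t.1 * x * (t⁻¹ : GL (Fin n) F).1 - x = 0 := by
    apply hker _ (K.sub_mem hyK hxK) a ha0
    rw [Matrix.sub_mulVec, hya, sub_self]
  have hcomm : t.1 * x = x * t.1 := by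
    have h1 : t.1 * x * (t⁻¹ : GL (Fin n) F).1 = x := sub_eq_zero.mp hyx
    have h2 : t.1 * x * (t⁻¹ : GL (Fin n) F).1 * t.1 = x * t.1 := by rw [h1]
    rw [mul_assoc, Units.inv_mul, mul_one] at h2
    exact h2
  obtain ⟨w, hw⟩ := exists_herm_ne_zero hF v hv0
  have h1 : (t.1 * x) *ᵥ w = (x * t.1) *ᵥ w := by rw [hcomm]
  rw [← Matrix.mulVec_mulVec, ← Matrix.mulVec_mulVec, htv, htv, Matrix.mulVec_add,
    Matrix.mulVec_smul] at h1
  have h2 : (μ * Cfsg.hermForm n F q w v) • x *ᵥ v =
      (μ * Cfsg.hermForm n F q (x *ᵥ w) v) • v := (add_left_cancel h1).symm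
  refine ⟨(μ * Cfsg.hermForm n F q w v)⁻¹ * (μ * Cfsg.hermForm n F q (x *ᵥ w) v), ?_⟩
  rw [mul_smul, ← h2, smul_smul, inv_mul_cancel₀ (mul_ne_zero hμ0 hw), one_smul]

end Cfsg.Agent.Lib.Helper28.SUPNU3
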