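import Mathlib
import Cfsg.Agent.Lib.Helper91.SuU

/-!
# S5172, piece EH1g (helper28 for helper91): a Weyl element conjugates a Siegel element to a
Levi transvection (even unitary case)
-/

set_option autoImplicit false

namespace Cfsg.Agent.Lib.Helper28.SuEH1g

open Matrix Cfsg.Agent.Lib.Helper91.SpU Cfsg.Agent.Lib.Helper91.SuU

/-- the matrix of the Weyl element `[1 X; 0 1][1 0; Y 1][1 X; 0 1]` -/
theorem weyl_mat_aux {n : Type*} [Fintype n] [DecidableEq n] {R : Type*} [CommRing R]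
    (E X Y : Matrix n n R) (hXY : X * Y = -E) (hYX : Y * X = -E) (hEX : E * X = X) :
    fromBlocks 1 X 0 1 * fromBlocks 1 0 Y 1 * fromBlocks 1 X 0 1 =
      fromBlocks (1 - E) X Y (1 - E) := by
  rw [Matrix.fromBlocks_multiply, Matrix.fromBlocks_multiply]
  simp only [Matrix.mul_one, Matrix.one_mul, Matrix.mul_zero, Matrix.zero_mul, add_zero,
    zero_add, hXY, hYX, Matrix.add_mul, Matrix.neg_mul, hEX]
  congr 1 <;> abel

/-- the matrix of the Weyl element `[1 εE; 0 1][1 0; -ε'E 1][1 εE; 0 1]` -/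
theorem weyl_mat {n : Type*} [Fintype n] [DecidableEq n] {R : Type*} [CommRing R]
    (E : Matrix n n R) (hEE : E * E = E) (ε ε' : R) (hεε : ε * ε' = 1) :
    fromBlocks 1 (ε • E) 0 1 * fromBlocks 1 0 (-(ε' • E)) 1 * fromBlocks 1 (ε • E) 0 1 =
      fromBlocks (1 - E) (ε • E) (-(ε' • E)) (1 - E) := by
  apply weyl_mat_aux
  · rw [Matrix.mul_neg, Matrix.smul_mul, Matrix.mul_smul, smul_smul, hεε, one_smul, hEE]
  · rw [Matrix.neg_mul, Matrix.smul_mul, Matrix.mul_smul, smul_smul, mul_comm ε' ε, hεε,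
      one_smul, hEE]
  · rw [Matrix.mul_smul, hEE]

/-- abstract block identity behind `weyl_conj` -/
theorem block_aux {n : Type*} [Fintype n] [DecidableEq n] {R : Type*} [CommRing R]
    (E P Q X Y P' Q' : Matrix n n R) (hPE : P * E = P) (hEP' : E * P' = 0)
    (hEQ' : E * Q' = Q') (hPX : P * X = P') (hQY : Q * Y = 0) (hYP' : Y * P' = 0)
    (hYQ' : Y * Q' = -Q) (hQE : Q * E = 0) :
    fromBlocks (1 - E) X Y (1 - E) * fromBlocks 1 (P' + Q') 0 1 =
      fromBlocks (1 + P) 0 0 (1 - Q) * fromBlocks (1 - E) X Y (1 - E) := by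
  rw [Matrix.fromBlocks_multiply, Matrix.fromBlocks_multiply]
  simp only [Matrix.mul_one, Matrix.one_mul, Matrix.mul_zero, Matrix.zero_mul, add_zero,
    zero_add, Matrix.add_mul, Matrix.mul_add, Matrix.sub_mul, Matrix.mul_sub, hPE, hEP', hEQ',
    hPX, hQY, hYP', hYQ', hQE]
  congr 1 <;> abel

/-- abstract block identity behind `weyl_conj`, with the scalars -/
theorem block_identity {n : Type*} [Fintype n] [DecidableEq n] {R : Type*} [CommRing R]
    (E P Q : Matrix n n R) (hPE : P * E = P) (hEP : E * P = 0)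
    (hEQ : E * Q = Q) (hQE : Q * E = 0) (ε ε' : R) (hεε : ε * ε' = 1) :
    fromBlocks (1 - E) (ε • E) (-(ε' • E)) (1 - E) * fromBlocks 1 (ε • P + ε • Q) 0 1 =
      fromBlocks (1 + P) 0 0 (1 - Q) * fromBlocks (1 - E) (ε • E) (-(ε' • E)) (1 - E) := by
  have hεε' : ε' * ε = 1 := by rw [mul_comm, hεε]
  apply block_aux E P Q (ε • E) (-(ε' • E)) (ε • P) (ε • Q) hPE
  · rw [Matrix.mul_smul, hEP, smul_zero]
  · rw [Matrix.mul_smul, hEQ]
  · rw [Matrix.mul_smul, hPE]
  · rw [Matrix.mul_neg, Matrix.mul_smul, hQE, smul_zero, neg_zero]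
  · rw [Matrix.neg_mul, Matrix.smul_mul, Matrix.mul_smul, hEP, smul_zero, smul_zero, neg_zero]
  · rw [Matrix.neg_mul, Matrix.smul_mul, Matrix.mul_smul, hEQ, smul_smul, hεε', one_smul]
  · exact hQE

theorem weyl_conj (l : ℕ) (K : Type*) [Field K] (σ : K →+* K) (hσ : ∀ x, σ (σ x) = x)
    (ε : K) (hε0 : ε ≠ 0) (hε : σ ε = -ε) (i j : Fin l) (hij : i ≠ j) (a : K) :
    ∃ (g : GU l K σ) (B : Matrix (Fin l) (Fin l) K) (hB : B.map σ = -Bᵀ),
      g * usq l K σ B hB * g⁻¹ = uphi l K σ hσ (SpecialLinearGroup.transvection hij a) := by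
  obtain ⟨E, hE⟩ : ∃ E : Matrix (Fin l) (Fin l) K, E = Matrix.single j j 1 := ⟨_, rfl⟩
  obtain ⟨P, hP⟩ : ∃ P : Matrix (Fin l) (Fin l) K, P = Matrix.single i j a := ⟨_, rfl⟩
  obtain ⟨Q, hQ⟩ : ∃ Q : Matrix (Fin l) (Fin l) K, Q = Matrix.single j i (σ a) := ⟨_, rfl⟩
  have hEE : E * E = E := by rw [hE, Matrix.single_mul_single_same, mul_one]
  have hPE : P * E = P := by rw [hE, hP, Matrix.single_mul_single_same, mul_one]
  have hEP : E * P = 0 := by
    rw [hE, hP]
    exact Matrix.single_mul_single_of_ne _ _ _ _ (Ne.symm hij) _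
  have hEQ : E * Q = Q := by rw [hE, hQ, Matrix.single_mul_single_same, one_mul]
  have hQE : Q * E = 0 := by
    rw [hE, hQ]
    exact Matrix.single_mul_single_of_ne _ _ _ _ hij _
  have hεε : ε * ε⁻¹ = 1 := mul_inv_cancel₀ hε0
  have hz : σ (-ε⁻¹) = -(-ε⁻¹) := by
    rw [map_neg, map_inv₀, hε, inv_neg]
  -- the Weyl element
  obtain ⟨g, hgdef⟩ : ∃ g : GU l K σ,
      g = uyy l K σ j ε hε * uzz l K σ j (-ε⁻¹) hz * uyy l K σ j ε hε := ⟨_, rfl⟩
  have hg : mat l K σ g = fromBlocks (1 - E) (ε • E) (-(ε⁻¹ • E)) (1 - E) := by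
    rw [hgdef, mat_mul, mat_mul, uyy_mat, uzz_mat]
    have e1 : (Matrix.single j j ε : Matrix (Fin l) (Fin l) K) = ε • E := by
      rw [hE, Matrix.smul_single, smul_eq_mul, mul_one]
    have e2 : (Matrix.single j j (-ε⁻¹) : Matrix (Fin l) (Fin l) K) = -(ε⁻¹ • E) := by
      rw [hE, Matrix.smul_single, smul_eq_mul, mul_one, Matrix.single_neg]
    rw [e1, e2]
    exact weyl_mat E hEE ε ε⁻¹ hεε
  -- the skew-hermitian matrix
  have hB : (ε • P + ε • Q).map σ = -(ε • P + ε • Q)ᵀ := by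
    rw [hP, hQ, Matrix.smul_single, Matrix.smul_single, smul_eq_mul, smul_eq_mul,
      Matrix.map_add (f := σ) (map_add σ), Matrix.map_single, Matrix.map_single,
      Matrix.transpose_add, Matrix.transpose_single, Matrix.transpose_single, neg_add,
      Matrix.single_neg, Matrix.single_neg, map_mul, map_mul, hσ, hε, add_comm]
    congr 2
    · ring
    · ring
  refine ⟨g, ε • P + ε • Q, hB, ?_⟩
  rw [mul_inv_eq_iff_eq_mul]
  apply mat_ext
  rw [mat_mul, mat_mul, hg, usq_mat, uphi_mat]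
  have h1 : ((SpecialLinearGroup.transvection hij a : SpecialLinearGroup (Fin l) K) :
      Matrix (Fin l) (Fin l) K) = 1 + P := by
    rw [hP]
    rfl
  have h2 : ((((SpecialLinearGroup.transvection hij a)⁻¹ : SpecialLinearGroup (Fin l) K) :
      Matrix (Fin l) (Fin l) K).map σ)ᵀ = 1 - Q := by
    rw [SpecialLinearGroup.transvection_inv, SpecialLinearGroup.transvection_coe,
      Matrix.map_add (f := σ) (map_add σ), Matrix.map_one _ (map_zero σ) (map_one σ),
      Matrix.map_single, Matrix.transpose_add, Matrix.transpose_one, Matrix.transpose_single,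
      map_neg, ← Matrix.single_neg, hQ, sub_eq_add_neg]
  rw [h1, h2]
  exact block_identity E P Q hPE hEP hEQ hQE ε ε⁻¹ hεε

end Cfsg.Agent.Lib.Helper28.SuEH1g
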