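import Cfsg.Agent.Lib.Helper98.T73Defs
import Cfsg.Agent.Lib.Helper47.OrthFix

/-!
# Project T73 (S5973, helper98), piece TI2TS: an invariant totally isotropic subspace of
`range (g - 1)` is totally singular.
-/

set_option autoImplicit false

namespace Cfsg.Agent.Lib.Helper98.T73

open Cfsg.Agent.Lib.Helper47 Module Polynomial

universe u

variable {F : Type u} [Field F] [Fintype F] {V : Type u} [AddCommGroup V] [Module F V]
  [FiniteDimensional F V] {Q : V → F} {B : V → V → F}

/-- TI2TS -/
theorem ti_ts (hQ : IsQuad Q B) (p : ℕ) [Fact p.Prime] [CharP F p] (r : ℕ) (hr : r.Prime)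
    (hrp : r ≠ p) (g : Module.End F V) (hgQ : QI Q g) (hg : g ^ r = 1) (U : Submodule F V)
    (hUR : U ≤ LinearMap.range (g - 1)) (hUg : U.map g ≤ U)
    (hti : ∀ x ∈ U, ∀ y ∈ U, B x y = 0) : TS Q U := by
  intro u hu
  by_cases h2 : (2 : F) = 0
  · have hrF : (r : F) ≠ 0 := by
      intro h0
      have hd := (CharP.cast_eq_zero_iff F p r).1 h0
      exact hrp ((Nat.prime_dvd_prime_iff_eq Fact.out hr).1 hd).symm
    have hdisj := disjoint_ker_range g r hrF hg
    have hgU : ∀ x ∈ U, g x ∈ U := fun x hx => hUg ⟨x, hx, rfl⟩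
    have hmap : ∀ x ∈ U, (g - 1) x ∈ U := by
      intro x hx
      rw [LinearMap.sub_apply, Module.End.one_apply]
      exact U.sub_mem (hgU x hx) hx
    obtain ⟨T, hT⟩ : ∃ T : U →ₗ[F] U, ∀ x : U, ((T x : U) : V) = (g - 1) (x : V) :=
      ⟨(g - 1).restrict hmap, fun x => rfl⟩
    have hinj : Function.Injective T := by
      rw [← LinearMap.ker_eq_bot, LinearMap.ker_eq_bot']
      intro x hx
      have h1 : (g - 1) (x : V) = 0 := by
        rw [← hT, hx]
        rfl
      have h3 : (x : V) ∈ LinearMap.ker (g - 1) ⊓ LinearMap.range (g - 1) :=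
        ⟨LinearMap.mem_ker.2 h1, hUR x.2⟩
      rw [hdisj.eq_bot, Submodule.mem_bot] at h3
      exact Subtype.ext h3
    have hsurj : Function.Surjective T := LinearMap.injective_iff_surjective.1 hinj
    obtain ⟨u', hu'⟩ := hsurj ⟨u, hu⟩
    have h4 : (g - 1) (u' : V) = u := by
      rw [← hT, hu']
    have h5 : Q (-(u' : V)) = Q (u' : V) := by
      have h6 := hQ.smul (-1) (u' : V)
      rw [neg_one_smul] at h6
      rw [h6]
      ring
    rw [← h4, LinearMap.sub_apply, Module.End.one_apply, sub_eq_add_neg, hQ.polar, hgQ,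
      hti _ (hgU _ u'.2) _ (U.neg_mem u'.2), add_zero, h5]
    linear_combination Q (u' : V) * h2
  · have h1 := hQ.self u
    rw [hti u hu u hu] at h1
    exact (mul_eq_zero.1 h1.symm).resolve_left h2

end Cfsg.Agent.Lib.Helper98.T73
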