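import Mathlib
import Cfsg.Agent.Lib.Helper82.TGModDefs
import Cfsg.Agent.Lib.Helper82.CharCore
import Cfsg.Agent.Lib.Helper6.TGMRK
import Cfsg.Agent.Lib.Helper4.TGMCRK

/-!
# TG-MOD piece RANK (job 949, poster helper82): the block of `ξ` in `F[H]` has dimension `ξ(1)²`.
-/

set_option autoImplicit false

namespace Cfsg.Agent.Lib.Helper28.TGM

open Cfsg Cfsg.Agent.Lib.Helper82.TGM

/-- rank of a scalar multiple is at most the rank -/
theorem h28_rank_smul_le {n : Type*} [Fintype n] [DecidableEq n] {F : Type*} [Field F]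
    (c : F) (B : Matrix n n F) : (c • B).rank ≤ B.rank := by
  have h : c • B = (c • (1 : Matrix n n F)) * B := by
    rw [Matrix.smul_mul, Matrix.one_mul]
  rw [h]
  exact Matrix.rank_mul_le_right _ _

/-- rank of a nonzero scalar multiple is the rank -/
theorem h28_rank_smul_eq {n : Type*} [Fintype n] [DecidableEq n] {F : Type*} [Field F]
    (c : F) (hc : c ≠ 0) (B : Matrix n n F) : (c • B).rank = B.rank := by
  apply le_antisymm (h28_rank_smul_le c B)
  have h : B = c⁻¹ • (c • B) := by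
    rw [smul_smul, inv_mul_cancel₀ hc, one_smul]
  calc B.rank = (c⁻¹ • (c • B)).rank := by rw [← h]
    _ ≤ (c • B).rank := h28_rank_smul_le _ _

/-- subadditivity of the rank -/
theorem h28_rank_add_le {n : Type*} [Fintype n] [DecidableEq n] {F : Type*} [Field F]
    (A B : Matrix n n F) : (A + B).rank ≤ A.rank + B.rank := by
  unfold Matrix.rank
  have h : LinearMap.range (A + B).mulVecLin ≤
      LinearMap.range A.mulVecLin ⊔ LinearMap.range B.mulVecLin := by
    rintro _ ⟨x, rfl⟩
    rw [Matrix.mulVecLin_apply, Matrix.add_mulVec]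
    exact Submodule.add_mem_sup ⟨x, rfl⟩ ⟨x, rfl⟩
  exact (Submodule.finrank_mono h).trans (Submodule.finrank_add_le_finrank_add_finrank _ _)

/-- the matrix of `convL E` -/
theorem h28_convL_eq {H : Type*} [Group H] [Fintype H] [DecidableEq H] {F : Type*} [Field F]
    (E : H → F) :
    convL E = (Matrix.of (fun g y : H => E (g * y⁻¹))).mulVecLin := by
  apply LinearMap.ext
  intro x
  funext g
  rw [convL_apply, Matrix.mulVecLin_apply]
  simp only [Matrix.mulVec, dotProduct, Matrix.of_apply]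
  apply Fintype.sum_equiv ((Equiv.inv H).trans (Equiv.mulRight g))
  intro h
  simp only [Equiv.trans_apply, Equiv.inv_apply, Equiv.coe_mulRight]
  have e : g * (h⁻¹ * g)⁻¹ = h := by group
  rw [e]

/-- abstract form of the piece RANK -/
theorem h28_rank_aux {H : Type*} [Group H] [Fintype H] [DecidableEq H] (R : Subring ℂ)
    {F : Type*} [Field F] (f : R →+* F) (hH : (Nat.card H : F) ≠ 0) (ξ : H → ℂ) (d : ℕ)
    (hval : ∀ h : H, ξ h ∈ R) (hd : d ∣ Nat.card H)
    (hrk : ∀ M : Matrix H H R, (M.map f).rank ≤ (M.map (fun x : R => (x : ℂ))).rank)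
    (hc1 : (Matrix.of (fun g y : H => ξ (y * g⁻¹))).rank = d ^ 2)
    (hc2 : ((Nat.card H : ℂ) • (1 : Matrix H H ℂ) -
      (d : ℂ) • Matrix.of (fun g y : H => ξ (y * g⁻¹))).rank = Nat.card H - d ^ 2)
    (E : H → F) (hE : ∀ h, E h = (d : F) / (Nat.card H : F) * f ⟨ξ h⁻¹, hval h⁻¹⟩) :
    Module.finrank F (LinearMap.range (convL E)) = d ^ 2 := by
  have hdF : (d : F) ≠ 0 := by
    obtain ⟨k, hk⟩ := hd
    intro h0
    apply hH
    rw [hk, Nat.cast_mul, h0, zero_mul]
  set c : F := (d : F) / (Nat.card H : F) with hc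
  have hc0 : c ≠ 0 := div_ne_zero hdF hH
  set MR : Matrix H H R := Matrix.of (fun g y : H => (⟨ξ (y * g⁻¹), hval _⟩ : R)) with hMR
  have hA : Matrix.of (fun g y : H => E (g * y⁻¹)) = c • MR.map f := by
    ext g y
    simp only [Matrix.of_apply, Matrix.smul_apply, Matrix.map_apply, smul_eq_mul, hMR]
    rw [hE]
    have e : (g * y⁻¹)⁻¹ = y * g⁻¹ := by group
    simp only [e]
  have hMRC : MR.map (fun x : R => (x : ℂ)) = Matrix.of (fun g y : H => ξ (y * g⁻¹)) := by
    ext g y
    simp [hMR]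
  have hcard : Nat.card H = Fintype.card H := Nat.card_eq_fintype_card
  have hd2 : d ^ 2 ≤ Nat.card H := by
    rw [← hc1, hcard]
    exact Matrix.rank_le_card_width _
  change Module.finrank F (LinearMap.range (convL E)) = d ^ 2
  rw [h28_convL_eq, ← Matrix.rank, hA, h28_rank_smul_eq c hc0]
  have hle : (MR.map f).rank ≤ d ^ 2 := by
    have := hrk MR
    rwa [hMRC, hc1] at this
  apply le_antisymm hle
  -- the complementary matrix
  set NR : Matrix H H R := (Nat.card H : R) • (1 : Matrix H H R) - (d : R) • MR with hNR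
  have hNC : NR.map (fun x : R => (x : ℂ)) =
      (Nat.card H : ℂ) • (1 : Matrix H H ℂ) - (d : ℂ) • Matrix.of (fun g y : H => ξ (y * g⁻¹)) := by
    ext g y
    simp only [hNR, hMR, Matrix.map_apply, Matrix.sub_apply, Matrix.smul_apply, Matrix.of_apply,
      Matrix.one_apply, smul_eq_mul]
    split_ifs <;> simp
  have hNF : NR.map f = (Nat.card H : F) • (1 : Matrix H H F) - (d : F) • MR.map f := by
    ext g y
    simp only [hNR, Matrix.map_apply, Matrix.sub_apply, Matrix.smul_apply,
      Matrix.one_apply, smul_eq_mul]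
    split_ifs <;> simp
  have hNle : (NR.map f).rank ≤ Nat.card H - d ^ 2 := by
    have := hrk NR
    rwa [hNC, hc2] at this
  have hsum : (Nat.card H : F) • (1 : Matrix H H F) = (d : F) • MR.map f + NR.map f := by
    rw [hNF]; abel
  have hfull : ((Nat.card H : F) • (1 : Matrix H H F)).rank = Nat.card H := by
    rw [h28_rank_smul_eq _ hH, Matrix.rank_one, hcard]
  have h1 : Nat.card H ≤ (MR.map f).rank + (Nat.card H - d ^ 2) := by
    calc Nat.card H = ((d : F) • MR.map f + NR.map f).rank := by rw [← hsum, hfull]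
      _ ≤ ((d : F) • MR.map f).rank + (NR.map f).rank := h28_rank_add_le _ _
      _ ≤ (MR.map f).rank + (Nat.card H - d ^ 2) :=
        add_le_add (h28_rank_smul_le _ _) hNle
  omega

/-- PIECE RANK (uses RK + CRK): the block of ξ in F[H] has dimension ξ(1)². -/
theorem rank_ecoef {H : Type*} [Group H] [Fintype H] (R : Subring ℂ) {F : Type*} [Field F]
    (f : R →+* F) (hH : (Nat.card H : F) ≠ 0) (ξ : IrrCharacter H)
    (hval : ∀ h : H, (ξ : H → ℂ) h ∈ R) :
    Module.finrank F (LinearMap.range (convL (Ecoef R f ξ hval))) =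
      charDegree (ξ : H → ℂ) ^ 2 := by
  classical
  obtain ⟨hc1, hc2⟩ := Cfsg.Agent.Lib.Helper4.TGM.crk ξ
  exact h28_rank_aux R f hH (ξ : H → ℂ) (charDegree (ξ : H → ℂ)) hval
    (Cfsg.Agent.Lib.Helper82.irr_degree_dvd_card ξ)
    (fun M => Cfsg.Agent.Lib.Helper6.TGM.rank_map_le R f M) hc1 hc2
    (Ecoef R f ξ hval) (fun h => rfl)

end Cfsg.Agent.Lib.Helper28.TGM
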