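import Mathlib
import Cfsg.Prelude.Def_GeometricClasses
import Cfsg.Prelude.Def_LieClassical
import Cfsg.Agent.Lib.Helper71.SUP0
import Cfsg.Agent.Lib.Helper59.U52Defs

/-! S5796 (project U52 of helper59), piece KF: a quintic field subalgebra `K` of `M₅(F)`,
`|F| = 4`: field structure on `K`, an element `y` of order `11`, roots of unity in `K`,
no zero divisors.  (Degree-5 analogue of `Helper35/SLPQ4a.lean`.) -/

set_option autoImplicit false

namespace Cfsg.Agent.Lib.Helper59.U52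

open Matrix Cfsg.Geo

section KF

variable {F : Type*} [Field F] [Fintype F]

variable (K : Subalgebra F (Matrix (Fin 5) (Fin 5) F))

theorem kf5_inv_exists (hK : IsFieldSubalgebra 5 K) (x : K) (hx : x ≠ 0) :
    ∃ y : K, x * y = 1 := by
  obtain ⟨y, hy, hxy⟩ := hK.inv x.1 x.2 (fun h0 => hx (Subtype.ext h0))
  exact ⟨⟨y, hy⟩, Subtype.ext hxy⟩

open Classical in
/-- the field structure on a field subalgebra -/
@[reducible] noncomputable def kf5_field (hK : IsFieldSubalgebra 5 K) : Field K :=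
  { (inferInstance : Ring K) with
    mul_comm := fun a b => Subtype.ext (hK.comm a.1 a.2 b.1 b.2)
    inv := fun x => if h : x = 0 then 0 else Classical.choose (kf5_inv_exists K hK x h)
    exists_pair_ne := ⟨0, 1, fun h => by
      have h1 := congrArg Subtype.val h
      have h2 := congrFun (congrFun h1 0) 0
      simp at h2⟩
    mul_inv_cancel := fun x hx => by
      show x * (if h : x = 0 then 0 else Classical.choose (kf5_inv_exists K hK x h)) = 1
      rw [dif_neg hx]
      exact Classical.choose_spec (kf5_inv_exists K hK x hx)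
    inv_zero := by
      show (if h : (0 : K) = 0 then (0 : K) else Classical.choose (kf5_inv_exists K hK 0 h)) = 0
      rw [dif_pos rfl]
    nnqsmul := _
    qsmul := _ }

theorem kf5_card_K (hK : IsFieldSubalgebra 5 K) (hq : Fintype.card F = 4) :
    Nat.card K = 1024 := by
  have h := Module.natCard_eq_pow_finrank (K := F) (V := K)
  rw [hK.finrank_eq, Nat.card_eq_fintype_card (α := F), hq] at h
  rw [h]
  norm_num

/-- roots of unity in `K` are powers of a primitive one -/
theorem kf5_K_roots (hK : IsFieldSubalgebra 5 K) {k : ℕ} [NeZero k]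
    (ζ : Matrix (Fin 5) (Fin 5) F) (hζK : ζ ∈ K) (hζ : ζ ^ k = 1)
    (hprim : ∀ l : ℕ, ζ ^ l = 1 → k ∣ l) (x : Matrix (Fin 5) (Fin 5) F) (hxK : x ∈ K)
    (hx : x ^ k = 1) : ∃ i < k, ζ ^ i = x := by
  letI := kf5_field K hK
  have h : IsPrimitiveRoot (⟨ζ, hζK⟩ : K) k :=
    ⟨Subtype.ext hζ, fun l hl => hprim l (congrArg Subtype.val hl)⟩
  obtain ⟨i, hi, e⟩ := h.eq_pow_of_pow_eq_one (ξ := ⟨x, hxK⟩) (Subtype.ext hx)
  exact ⟨i, hi, congrArg Subtype.val e⟩

theorem kf5_prim11 (u : Matrix (Fin 5) (Fin 5) F) (h11 : u ^ 11 = 1) (h1 : u ≠ 1) :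
    ∀ l : ℕ, u ^ l = 1 → 11 ∣ l := by
  intro l hl
  have hd : orderOf u ∣ 11 := orderOf_dvd_of_pow_eq_one h11
  have ho : orderOf u = 11 := by
    rcases (Nat.dvd_prime (by norm_num : Nat.Prime 11)).mp hd with h | h
    · exact absurd (orderOf_eq_one_iff.mp h) h1
    · exact h
  rw [← ho]
  exact orderOf_dvd_of_pow_eq_one hl

end KF

-- piece KF (three theorems, one file)
theorem exists_y {F : Type*} [Field F] [Fintype F] (hF : Fintype.card F = 4)
    (K : Subalgebra F (Matrix (Fin 5) (Fin 5) F)) (hK : IsFieldSubalgebra 5 K) :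
    ∃ y ∈ K, y ^ 11 = 1 ∧ y ≠ 1 := by
  classical
  letI := kf5_field K hK
  haveI : Fintype K := Fintype.ofFinite K
  have hc : Fintype.card K = 1024 := by rw [← Nat.card_eq_fintype_card, kf5_card_K K hK hF]
  have hcu : Fintype.card Kˣ = 1023 := by rw [Fintype.card_units, hc]
  haveI : Fact (Nat.Prime 11) := ⟨by norm_num⟩
  obtain ⟨x, hx⟩ := exists_prime_orderOf_dvd_card 11
    (by rw [hcu]; norm_num : 11 ∣ Fintype.card Kˣ)
  refine ⟨(x : K).1, (x : K).2, ?_, ?_⟩
  · have h7 : x ^ 11 = 1 := by rw [← hx]; exact pow_orderOf_eq_one x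
    have h7' : ((x : K)) ^ 11 = 1 := by
      rw [← Units.val_pow_eq_pow_val, h7, Units.val_one]
    exact congrArg Subtype.val h7'
  · intro h1
    have : x = 1 := Units.ext (Subtype.ext h1)
    rw [this, orderOf_one] at hx
    norm_num at hx

theorem K_roots11 {F : Type*} [Field F] [Fintype F]
    (K : Subalgebra F (Matrix (Fin 5) (Fin 5) F)) (hK : IsFieldSubalgebra 5 K)
    (y : Matrix (Fin 5) (Fin 5) F) (hyK : y ∈ K) (h11 : y ^ 11 = 1) (h1 : y ≠ 1)
    (x : Matrix (Fin 5) (Fin 5) F) (hxK : x ∈ K) (hx : x ^ 11 = 1) : ∃ i < 11, y ^ i = x :=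
  kf5_K_roots K hK y hyK h11 (kf5_prim11 y h11 h1) x hxK hx

theorem K_mul_eq_zero5 {F : Type*} [Field F] [Fintype F]
    (K : Subalgebra F (Matrix (Fin 5) (Fin 5) F)) (hK : IsFieldSubalgebra 5 K)
    {a b : Matrix (Fin 5) (Fin 5) F} (ha : a ∈ K) (hb : b ∈ K) (hab : a * b = 0) :
    a = 0 ∨ b = 0 := by
  letI := kf5_field K hK
  have h : (⟨a, ha⟩ : K) * ⟨b, hb⟩ = 0 := Subtype.ext hab
  rcases mul_eq_zero.mp h with h | h
  · exact Or.inl (congrArg Subtype.val h)
  · exact Or.inr (congrArg Subtype.val h)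

end Cfsg.Agent.Lib.Helper59.U52
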