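import Mathlib
import Cfsg.Prelude.Def_GeometricClasses
import Cfsg.Prelude.Def_LieClassical
import Cfsg.Agent.Lib.Helper7.GUOrder

/-! Project U9 (helper44), piece SOLG (helper28): a group of isometries of a non-degenerate
hermitian form in dimension 3 over the field with 4 elements is solvable. -/

set_option autoImplicit false

namespace Cfsg.Agent.Lib.Helper44.U9

open Matrix Cfsg.Geo

variable {n : ℕ} {F : Type*} [Field F] [Fintype F] {q : ℕ}

/-- `x ↦ x ^ q` as a ring homomorphism -/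
def SOLG_sig (hF : Fintype.card F = q ^ 2) : F →+* F where
  toFun x := x ^ q
  map_one' := one_pow q
  map_mul' x y := mul_pow x y q
  map_zero' := zero_pow (Cfsg.Agent.Lib.Helper7.herm_q_ne_zero hF)
  map_add' x y := Cfsg.Agent.Lib.Helper7.herm_add_pow hF x y

theorem SOLG_sig_apply (hF : Fintype.card F = q ^ 2) (x : F) : SOLG_sig hF x = x ^ q := rfl

/-- the form with Gram matrix `G` is `c` times the standard hermitian form in the basis `A` -/
theorem SOLG_form (hF : Fintype.card F = q ^ 2) (G A : Matrix (Fin 3) (Fin 3) F) (c : F)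
    (hA : Aᵀ * G * A.map (fun x : F => x ^ q) = c • (1 : Matrix (Fin 3) (Fin 3) F))
    (u v : Fin 3 → F) :
    formOfGram (fun c : F => c ^ q) G (A *ᵥ u) (A *ᵥ v) = c * Cfsg.hermForm 3 F q u v := by
  have h1 : ∀ x y : Fin 3 → F, formOfGram (fun c : F => c ^ q) G x y
      = x ⬝ᵥ (G *ᵥ (fun b => (y b) ^ q)) := by
    intro x y
    simp only [formOfGram, dotProduct, Matrix.mulVec, Finset.mul_sum, mul_assoc]
  have h2 : (fun b => ((A *ᵥ v) b) ^ q)
      = (A.map (fun x : F => x ^ q)) *ᵥ (fun b => (v b) ^ q) := by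
    funext b
    simp only [Matrix.mulVec, dotProduct, Matrix.map_apply]
    have h3 := map_sum (SOLG_sig hF) (fun j => A b j * v j) Finset.univ
    simp only [SOLG_sig_apply, mul_pow] at h3
    exact h3
  rw [h1, h2, ← Matrix.vecMul_transpose A u, Matrix.mulVec_mulVec, Matrix.dotProduct_mulVec,
    Matrix.vecMul_vecMul, ← Matrix.mul_assoc, hA]
  simp only [Cfsg.hermForm, dotProduct, Matrix.vecMul_smul, Matrix.vecMul_one, Pi.smul_apply,
    smul_eq_mul, Finset.mul_sum, mul_assoc]

/-- SOLG: a group of isometries of a non-degenerate hermitian form in dimension 3 over the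
field with 4 elements is solvable. -/
theorem SOLG (hF : Fintype.card F = q ^ 2) (hq : q = 2) (hsol : Group.IsSolvable ↥(Cfsg.GU 3 F 2))
    (G : Matrix (Fin 3) (Fin 3) F) (A : GL (Fin 3) F) (c : F) (hc : c ≠ 0)
    (hA : A.1ᵀ * G * A.1.map (fun x : F => x ^ q) = c • (1 : Matrix (Fin 3) (Fin 3) F))
    (R : Subgroup (GL (Fin 3) F))
    (hR : ∀ y ∈ R, ∀ u v : Fin 3 → F,
      formOfGram (fun c : F => c ^ q) G (y.1 *ᵥ u) (y.1 *ᵥ v) =
        formOfGram (fun c : F => c ^ q) G u v) : Group.IsSolvable ↥R := by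
  subst hq
  have hmem : ∀ y ∈ R, A⁻¹ * y * A ∈ Cfsg.GU 3 F 2 := by
    intro y hy u v
    show Cfsg.hermForm 3 F 2 ((A⁻¹ * y * A : GL (Fin 3) F).1 *ᵥ u)
      ((A⁻¹ * y * A : GL (Fin 3) F).1 *ᵥ v) = Cfsg.hermForm 3 F 2 u v
    have key : ∀ w : Fin 3 → F,
        A.1 *ᵥ ((A⁻¹ * y * A : GL (Fin 3) F).1 *ᵥ w) = y.1 *ᵥ (A.1 *ᵥ w) := by
      intro w
      rw [Matrix.mulVec_mulVec, Matrix.mulVec_mulVec, ← Units.val_mul, ← Units.val_mul]
      congr 2
      group
    have e1 := SOLG_form hF G A.1 c hA ((A⁻¹ * y * A : GL (Fin 3) F).1 *ᵥ u)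
      ((A⁻¹ * y * A : GL (Fin 3) F).1 *ᵥ v)
    rw [key, key, hR y hy, SOLG_form hF G A.1 c hA u v] at e1
    exact (mul_left_cancel₀ hc e1).symm
  let φ : R →* Cfsg.GU 3 F 2 :=
    { toFun := fun y => ⟨A⁻¹ * y.1 * A, hmem y.1 y.2⟩
      map_one' := by
        apply Subtype.ext
        simp
      map_mul' := fun x y => by
        apply Subtype.ext
        simp [mul_assoc] }
  have hinj : Function.Injective φ := by
    intro x y hxy
    have h : A⁻¹ * x.1 * A = A⁻¹ * y.1 * A := congrArg Subtype.val hxy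
    apply Subtype.ext
    exact mul_left_cancel (mul_right_cancel h)
  exact solvable_of_solvable_injective hinj

end Cfsg.Agent.Lib.Helper44.U9
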