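import Mathlib
import Cfsg.Agent.Lib.Helper44.UDDefs

/-!
# S5655 (helper44), piece TRF (helper28): `(1, a) ∈ Gam` gives `g ^ (q + 1) = T_{w,a}` in `Y`.
-/

set_option autoImplicit false

namespace Cfsg.Agent.Lib.Helper44.UD

open Matrix Cfsg.Agent.Lib.Helper93 Cfsg.Agent.Lib.Helper18 Cfsg.Agent.Lib.Helper7

theorem ud_trf {F : Type*} [Field F] [Fintype F] (q : ℕ) : TRFStmt F q := by
  intro hF N Y hY w w' e hww hw'w' hww' he hew hew' a ha
  obtain ⟨g, χ, s, hgY, hχ0, hs, hχ1, hgw, hgw', hgx⟩ := ha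
  have hχ : χ ^ (q + 1) = 1 := hχ1.symm
  have hq0 : (q : F) = 0 := by
    have h1 : ((Fintype.card F : ℕ) : F) = 0 := Nat.cast_card_eq_zero F
    rw [hF] at h1
    push_cast at h1
    exact (pow_eq_zero_iff two_ne_zero).mp h1
  have hχinv : (χ ^ q)⁻¹ = χ := by
    have h1 : χ ^ q * χ = 1 := by rw [← pow_succ]; exact hχ
    exact inv_eq_of_mul_eq_one_right h1
  have hw'w : Cfsg.hermForm N F q w' w = 1 := by rw [hf_conj hF, hww', one_pow]
  -- powers of `g` on `w`
  have hpw : ∀ m : ℕ, (g ^ m) *ᵥ w = (χ ^ m) • w := by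
    intro m
    induction m with
    | zero => simp
    | succ m ih =>
      rw [pow_succ, ← Matrix.mulVec_mulVec, hgw, Matrix.mulVec_smul, ih, smul_smul, pow_succ,
        mul_comm]
  -- powers of `g` on `w'`
  have hpw' : ∀ m : ℕ, (g ^ m) *ᵥ w' = (χ ^ m) • w' + ((m : F) * a * χ ^ m) • w := by
    intro m
    induction m with
    | zero => simp
    | succ m ih =>
      rw [pow_succ, ← Matrix.mulVec_mulVec, hgw', hχinv, Matrix.mulVec_add, Matrix.mulVec_smul,
        Matrix.mulVec_smul, ih, hpw]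
      push_cast
      module
  -- powers of `g` on the orthogonal complement of `w, w'`
  have hpx : ∀ m : ℕ, ∀ x : Fin N → F, Cfsg.hermForm N F q x w = 0 →
      Cfsg.hermForm N F q x w' = 0 →
      (g ^ m) *ᵥ x = x + ((s ^ m - 1) * Cfsg.hermForm N F q x e) • e := by
    intro m
    induction m with
    | zero => intro x _ _; simp
    | succ m ih =>
      intro x hxw hxw'
      have hgx1 : g *ᵥ x = x + ((s - 1) * Cfsg.hermForm N F q x e) • e := by
        rw [hgx x hxw hxw', qrefl_mulVec]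
      have hyw : Cfsg.hermForm N F q (x + ((s - 1) * Cfsg.hermForm N F q x e) • e) w = 0 := by
        rw [hf_add_left, hf_smul_left, hxw, hew, mul_zero, add_zero]
      have hyw' : Cfsg.hermForm N F q (x + ((s - 1) * Cfsg.hermForm N F q x e) • e) w' = 0 := by
        rw [hf_add_left, hf_smul_left, hxw', hew', mul_zero, add_zero]
      rw [pow_succ, ← Matrix.mulVec_mulVec, hgx1, ih _ hyw hyw', hf_add_left, hf_smul_left]
      rcases he with rfl | he1
      · simp
      · rw [he1]
        module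
  have hmain : g ^ (q + 1) = Cfsg.unitaryTransvection N q w a := by
    apply Matrix.toLin'.injective
    apply LinearMap.ext
    intro x
    rw [Matrix.toLin'_apply, Matrix.toLin'_apply]
    obtain ⟨x0, hx0⟩ : ∃ x0 : Fin N → F,
        x0 = x - Cfsg.hermForm N F q x w' • w - Cfsg.hermForm N F q x w • w' := ⟨_, rfl⟩
    have hx0w : Cfsg.hermForm N F q x0 w = 0 := by
      rw [hx0, hf_sub_left, hf_sub_left, hf_smul_left, hf_smul_left, hww, hw'w]
      ring
    have hx0w' : Cfsg.hermForm N F q x0 w' = 0 := by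
      rw [hx0, hf_sub_left, hf_sub_left, hf_smul_left, hf_smul_left, hww', hw'w']
      ring
    have hx : x = Cfsg.hermForm N F q x w' • w + Cfsg.hermForm N F q x w • w' + x0 := by
      rw [hx0]
      module
    have hx0e : (g ^ (q + 1)) *ᵥ x0 = x0 := by
      rw [hpx (q + 1) x0 hx0w hx0w', hs, sub_self, zero_mul, zero_smul, add_zero]
    rw [unitaryTransvection_mulVec]
    have hL : (g ^ (q + 1)) *ᵥ x = Cfsg.hermForm N F q x w' • w +
        Cfsg.hermForm N F q x w • (w' + a • w) + x0 := by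
      conv_lhs => rw [hx]
      rw [Matrix.mulVec_add, Matrix.mulVec_add, Matrix.mulVec_smul, Matrix.mulVec_smul, hpw, hpw',
        hx0e, hχ]
      push_cast
      rw [hq0]
      module
    rw [hL, hx0]
    module
  rw [← hmain]
  obtain ⟨t, ht, rfl⟩ := hgY
  exact ⟨t ^ (q + 1), Y.pow_mem ht _, Units.val_pow_eq_pow_val t (q + 1)⟩

end Cfsg.Agent.Lib.Helper44.UD
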